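import Cfsg.Agent.RuRank.Defs

/-!
The two suborbits of the point stabilizer on 4060 points and the first properties of the orbital graph.
-/

set_option autoImplicit false
set_option maxRecDepth 100000

namespace Cfsg.Agent.RuRank

open Cfsg.Agent.CosetCert MulAction

/-- The transversal word of a point in its class. -/
noncomputable def sWord (i : ℕ) : List ℕ := dec [0, 1, 2, 3, 4, 5] 21 (Dat.sWordT.get 64 i)

/-- The root of a class. -/
noncomputable def sRoot (c : ℕ) : ℕ := bif Nat.beq c 0 then 0 else bif Nat.beq c 1 then 2305 else 1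

/-- One point of the forest. -/
noncomputable def sOK (i : ℕ) : Bool :=
  (sWord i).all (fun k => Nat.blt k 14) && Nat.beq (ap (sWord i) (sRoot (cls i))) i &&
    Nat.blt (cls i) 3 && (!Nat.beq (cls i) 0 || Nat.beq i 0)

theorem s_table0 : allB (fun i => Nat.ble 4060 i || sOK i) 11 0 = true := by decide +kernel

theorem s_table1 : allB (fun i => Nat.ble 4060 i || sOK i) 11 2048 = true := by decide +kernel

theorem s_table (i : Fin 4060) : sOK i.val = true := by
  have h : (Nat.ble 4060 i.val || sOK i.val) = true := by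
    rcases Nat.lt_or_ge i.val 2048 with c | c
    · exact allB_spec s_table0 i.val (Nat.zero_le _) (by norm_num; omega)
    · exact allB_spec s_table1 i.val c (by norm_num; omega)
  rw [Bool.or_eq_true] at h
  exact h.resolve_left fun e => absurd (Nat.le_of_ble_eq_true e) (not_le.2 i.2)

theorem cls_roots : cls 0 = 0 ∧ cls 2305 = 1 ∧ cls 1 = 2 := by decide +kernel

theorem count_cls : (List.range 4060).countP (fun i => Nat.beq (cls i) 1) = 1755 ∧
    (List.range 4060).countP (fun i => Nat.beq (cls i) 2) = 2304 := by decide +kernel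

theorem s_spec (i : Fin 4060) : (∀ k ∈ sWord i.val, k < 14) ∧ ap (sWord i.val) (sRoot (cls i.val)) = i.val ∧
    cls i.val < 3 ∧ (cls i.val = 0 → i = 0) := by
  have h := s_table i
  simp only [sOK, Bool.and_eq_true, List.all_eq_true, Bool.or_eq_true] at h
  obtain ⟨⟨⟨a, b⟩, c⟩, d⟩ := h
  refine ⟨fun k hk => Nat.le_of_ble_eq_true (a k hk), Nat.eq_of_beq_eq_true b,
    Nat.le_of_ble_eq_true c, fun h0 => ?_⟩
  rcases d with d | d
  · rw [h0] at d; exact absurd d (by decide)
  · exact Fin.ext (Nat.eq_of_beq_eq_true d)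

theorem cls_lt (i : Fin 4060) : cls i.val < 3 := (s_spec i).2.2.1

theorem cls_eq_zero {i : Fin 4060} : cls i.val = 0 ↔ i = 0 :=
  ⟨(s_spec i).2.2.2, fun h => by rw [h]; exact cls_roots.1⟩

theorem exists_q {i : Fin 4060} (h : cls i.val = 1) : ∃ g ∈ S0, g qPt = i := by
  obtain ⟨hw, he, -, -⟩ := s_spec i
  refine ⟨wEl (sWord i.val), wEl_mem hw, Fin.ext ?_⟩
  rw [wEl_apply _ hw]
  rwa [h] at he

theorem exists_r {i : Fin 4060} (h : cls i.val = 2) : ∃ g ∈ S0, g rPt = i := by
  obtain ⟨hw, he, -, -⟩ := s_spec i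
  refine ⟨wEl (sWord i.val), wEl_mem hw, Fin.ext ?_⟩
  rw [wEl_apply _ hw]
  rwa [h] at he

theorem cls_q : cls qPt.val = 1 := cls_roots.2.1

theorem cls_r : cls rPt.val = 2 := cls_roots.2.2

theorem countP_eq_ncard (p : ℕ → Bool) :
    (List.range 4060).countP p = {i : Fin 4060 | p i.val = true}.ncard := by
  classical
  have h1 : {i : Fin 4060 | p i.val = true} = ↑((Finset.univ : Finset (Fin 4060)).filter fun i => p i.val = true) := by
    ext; simp
  rw [h1, Set.ncard_coe_finset, ← List.map_coe_finRange_eq_range, List.countP_map,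
    List.countP_eq_length_filter]
  rw [← List.toFinset_card_of_nodup ((List.nodup_finRange 4060).filter _)]
  congr 1
  ext i
  simp

theorem ncard_cls1 : {i : Fin 4060 | cls i.val = 1}.ncard = 1755 := by
  rw [← count_cls.1, countP_eq_ncard]
  congr 1
  ext i
  exact ⟨fun h => by rw [Set.mem_setOf_eq, h]; rfl, fun h => Nat.eq_of_beq_eq_true h⟩

theorem ncard_cls2 : {i : Fin 4060 | cls i.val = 2}.ncard = 2304 := by
  rw [← count_cls.2, countP_eq_ncard]
  congr 1
  ext i
  exact ⟨fun h => by rw [Set.mem_setOf_eq, h]; rfl, fun h => Nat.eq_of_beq_eq_true h⟩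

theorem card_mul_stab {α : Type*} [Finite α] (H : Subgroup (Equiv.Perm α)) (x : α) :
    (orbit H x).ncard * Nat.card ↥(H ⊓ stabilizer (Equiv.Perm α) x) = Nat.card H := by
  have e : stabilizer H x = (stabilizer (Equiv.Perm α) x).subgroupOf H := by
    ext g; rfl
  have h := (stabilizer H x).card_mul_index
  rw [index_stabilizer, e] at h
  rw [← Nat.card_congr (Subgroup.subgroupOfEquivOfLe (inf_le_left : H ⊓ stabilizer (Equiv.Perm α) x ≤ H)).toEquiv,
    Subgroup.inf_subgroupOf_left]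
  rw [mul_comm]
  exact h

theorem card_S0 : Nat.card S0 = 35942400 := by
  have h := card_mul_stab RK (0 : Fin 4060)
  have ho : orbit RK (0 : Fin 4060) = Set.univ := Set.eq_univ_of_forall fun j => by
    obtain ⟨g, hg, e⟩ := RK_trans 0 j
    exact ⟨⟨g, hg⟩, e⟩
  rw [ho, Set.ncard_univ, Nat.card_fin, card_RK] at h
  have h' : 4060 * Nat.card S0 = 145926144000 := h
  omega

theorem S0_zero {g : Equiv.Perm (Fin 4060)} (hg : g ∈ S0) : g 0 = 0 :=
  mem_stabilizer_iff.1 (Subgroup.mem_inf.1 hg).2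

theorem orbit_q : orbit S0 qPt = {i : Fin 4060 | cls i.val = 1} := by
  have hsub : {i : Fin 4060 | cls i.val = 1} ⊆ orbit S0 qPt := fun i hi => by
    obtain ⟨g, hg, e⟩ := exists_q hi
    exact ⟨⟨g, hg⟩, e⟩
  refine Set.Subset.antisymm (fun i hi => ?_) hsub
  by_contra hne
  have hi0 : i ≠ 0 := by
    rintro rfl
    obtain ⟨g, hg⟩ := hi
    have : g.1 qPt = g.1 0 := hg.trans (S0_zero g.2).symm
    exact absurd (congrArg Fin.val (g.1.injective this)) (by decide)
  have hi2 : cls i.val = 2 := by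
    have h1 := cls_lt i
    have h2 : cls i.val ≠ 0 := fun h => hi0 (cls_eq_zero.1 h)
    have h3 : cls i.val ≠ 1 := hne
    omega
  have hall : orbit S0 qPt = {j : Fin 4060 | j ≠ 0} := by
    ext j
    constructor
    · rintro ⟨g, rfl⟩ h0
      have : g.1 qPt = g.1 0 := (show g.1 qPt = 0 from h0).trans (S0_zero g.2).symm
      exact absurd (congrArg Fin.val (g.1.injective this)) (by decide)
    · intro hj
      have h1 := cls_lt j
      have h2 : cls j.val ≠ 0 := fun h => hj (cls_eq_zero.1 h)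
      rcases Nat.lt_or_ge (cls j.val) 2 with h | h
      · exact hsub (show cls j.val = 1 by omega)
      · obtain ⟨g, hg, e⟩ := exists_r (show cls j.val = 2 by omega)
        obtain ⟨k, hk, e'⟩ := exists_r hi2
        rw [← orbit_eq_iff.2 hi]
        exact ⟨⟨g * k⁻¹, mul_mem hg (inv_mem hk)⟩, by
          show (g * k⁻¹) i = j
          rw [Equiv.Perm.mul_apply, ← e']
          simpa using e⟩
  have h := card_mul_stab S0 qPt
  rw [hall, card_S0] at h
  have hc : {j : Fin 4060 | j ≠ 0}.ncard = 4059 := by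
    rw [show {j : Fin 4060 | j ≠ 0} = ({0} : Set (Fin 4060))ᶜ from rfl, Set.ncard_compl, Set.ncard_singleton,
      Nat.card_fin]
  rw [hc] at h
  exact absurd (Dvd.intro _ h) (by norm_num)

theorem cls_smul {g : Equiv.Perm (Fin 4060)} (hg : g ∈ S0) (i : Fin 4060) : cls (g i).val = cls i.val := by
  have key : ∀ (k : Equiv.Perm (Fin 4060)), k ∈ S0 → ∀ j : Fin 4060, cls j.val = 1 → cls (k j).val = 1 := by
    intro k hk j hj
    have h1 : j ∈ orbit S0 qPt := by rw [orbit_q]; exact hj
    have h2 : (⟨k, hk⟩ : S0) • j ∈ orbit S0 qPt := mem_orbit_of_mem_orbit _ h1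
    rw [orbit_q] at h2
    exact h2
  have h0 : i = 0 ↔ g i = 0 := ⟨fun h => by rw [h, S0_zero hg], fun h => g.injective (h.trans (S0_zero hg).symm)⟩
  have h1 : cls i.val = 1 ↔ cls (g i).val = 1 :=
    ⟨key g hg i, fun h => by simpa using key g⁻¹ (inv_mem hg) (g i) h⟩
  have a := cls_lt i
  have b := cls_lt (g i)
  rw [← cls_eq_zero, ← cls_eq_zero] at h0
  omega

theorem orbit_r : orbit S0 rPt = {i : Fin 4060 | cls i.val = 2} := by
  ext i
  constructor
  · rintro ⟨g, rfl⟩
    show cls (g.1 rPt).val = 2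
    rw [cls_smul g.2, cls_r]
  · intro hi
    obtain ⟨g, hg, e⟩ := exists_r hi
    exact ⟨⟨g, hg⟩, e⟩

theorem card_Hq : Nat.card Hq = 20480 := by
  have h := card_mul_stab S0 qPt
  rw [orbit_q, ncard_cls1, card_S0] at h
  have h' : 1755 * Nat.card Hq = 35942400 := h
  omega

theorem card_Kr : Nat.card Kr = 15600 := by
  have h := card_mul_stab S0 rPt
  rw [orbit_r, ncard_cls2, card_S0] at h
  have h' : 2304 * Nat.card Kr = 35942400 := h
  omega

theorem adj_of {g : Equiv.Perm (Fin 4060)} (hg : g ∈ RK) {i : Fin 4060} (h : g i = 0) (j : Fin 4060) :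
    Adj i j ↔ cls (g j).val = 1 := by
  refine ⟨?_, fun hj => ⟨g, hg, h, hj⟩⟩
  rintro ⟨k, hk, hk0, hkj⟩
  have hs : g * k⁻¹ ∈ S0 := Subgroup.mem_inf.2 ⟨mul_mem hg (inv_mem hk), mem_stabilizer_iff.2 (by
    show (g * k⁻¹) 0 = 0
    rw [Equiv.Perm.mul_apply, ← hk0]
    simpa using h.trans hk0.symm)⟩
  rw [← hkj, ← cls_smul hs (k j), Equiv.Perm.mul_apply]
  simp

theorem adj_zero (j : Fin 4060) : Adj 0 j ↔ cls j.val = 1 := adj_of (one_mem RK) rfl j

theorem adj_map {g : Equiv.Perm (Fin 4060)} (hg : g ∈ RK) (i j : Fin 4060) : Adj (g i) (g j) ↔ Adj i j := by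
  obtain ⟨k, hk, e⟩ := RK_trans i 0
  rw [adj_of hk e, adj_of (mul_mem hk (inv_mem hg)) (show (k * g⁻¹) (g i) = 0 by simpa using e),
    Equiv.Perm.mul_apply]
  simp

theorem adj_symm {i j : Fin 4060} (h : Adj i j) : Adj j i := by
  obtain ⟨g, hg, hgi, hgj⟩ := h
  rw [← adj_map hg, hgi]
  set q := g j with hq
  obtain ⟨m, hm, hm0⟩ := RK_trans q 0
  rw [adj_of hm hm0]
  have hne : m 0 ≠ 0 := fun h => by
    have := m.injective (h.trans hm0.symm)
    rw [← this, cls_eq_zero.2 rfl] at hgj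
    omega
  by_contra h1
  have h2 : cls (m 0).val = 2 := by
    have := cls_lt (m 0)
    have : cls (m 0).val ≠ 0 := fun h => hne (cls_eq_zero.1 h)
    omega
  -- a paired suborbit has the same size
  have hcount : Nat.card S0 = 1755 * Nat.card Kr := by
    obtain ⟨s, hs, es⟩ := exists_r h2
    obtain ⟨t, ht, et⟩ := exists_q hgj
    have hd : (s⁻¹ * m * t : Equiv.Perm (Fin 4060)) ∈ RK :=
      mul_mem (mul_mem (inv_mem (Subgroup.mem_inf.1 hs).1) hm) (Subgroup.mem_inf.1 ht).1
    set d := s⁻¹ * m * t with hd'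
    have d0 : d qPt = 0 := by
      have : s⁻¹ (0 : Fin 4060) = 0 := S0_zero (inv_mem hs)
      simp [hd', Equiv.Perm.mul_apply, et, hm0, this]
    have d1 : d 0 = rPt := by
      simp [hd', Equiv.Perm.mul_apply, S0_zero ht, ← es]
    have hle : Hq.map (MulAut.conj d).toMonoidHom ≤ Kr := by
      rintro _ ⟨u, hu, rfl⟩
      obtain ⟨hu0, huq⟩ := Subgroup.mem_inf.1 hu
      show d * u * d⁻¹ ∈ Kr
      refine Subgroup.mem_inf.2 ⟨Subgroup.mem_inf.2 ⟨mul_mem (mul_mem hd (Subgroup.mem_inf.1 hu0).1) (inv_mem hd),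
        mem_stabilizer_iff.2 ?_⟩, mem_stabilizer_iff.2 ?_⟩
      · show (d * u * d⁻¹) 0 = 0
        rw [← d0]
        simp only [Equiv.Perm.mul_apply, Equiv.Perm.inv_def, Equiv.symm_apply_apply]
        rw [show u qPt = qPt from huq]
      · show (d * u * d⁻¹) rPt = rPt
        rw [← d1]
        simp only [Equiv.Perm.mul_apply, Equiv.Perm.inv_def, Equiv.symm_apply_apply]
        rw [S0_zero hu0]
    have := Subgroup.card_le_of_le hle
    rw [Subgroup.card_map_of_injective (MulEquiv.injective _), card_Hq, card_Kr] at this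
    omega
  rw [card_S0, card_Kr] at hcount
  omega

end Cfsg.Agent.RuRank
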