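import Cfsg.Agent.RuRank.BoundCore
import Cfsg.Agent.RuRank.Facts

/-!
The stabilizer of a point in the automorphism group of the orbital graph on 4060 points has order
less than the order of the Rudvalis group.
-/

set_option autoImplicit false

namespace Cfsg.Agent.RuRank

open MulAction

/-- The stabilizer of a point in the automorphisms of the graph is small. -/
theorem card_aut_lt :
    Nat.card ↥(autG ⊓ stabilizer (Equiv.Perm (Fin 4060)) (0 : Fin 4060)) < 4060 * 35942400 :=
  Bnd.card_stab_lt fun _ _ j hg h => adj_of hg h j

end Cfsg.Agent.RuRank
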