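import Mathlib.Data.List.Basic

/-! Words in the seven letters sending the 21 points of the neighbourhood table to 0 (generated data). -/

set_option autoImplicit false

namespace Cfsg.Agent.RuRank.Dat

/-- For each point, a word in the letters 1..7 (first letter applied last) sending it to 0. -/
def ptWords : List (List ℕ) := [[], [7, 2, 3, 1, 6], [1, 7, 1, 6, 1], [1, 5, 1, 4, 7], [1, 3, 2, 5, 2, 1], [2, 4, 6, 3, 4], [5, 4, 1, 7, 2], [4, 2, 1, 4, 1], [6, 1, 3, 5], [1, 2, 1, 6, 3], [1, 6, 4, 3, 6], [2, 1, 7, 1, 5], [1, 6, 1, 5, 1], [6, 2, 1, 2, 7], [7, 1, 4, 3], [1, 6, 5, 3, 5], [1, 6, 1, 5, 3, 5], [1, 2, 4, 1, 6, 2], [2, 7, 4, 5, 1], [4, 1, 2, 1], [1, 2, 3, 4, 1]]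

end Cfsg.Agent.RuRank.Dat
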