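import Cfsg.Agent.RuRank.Defs
import Cfsg.Agent.RuRank.DataRows
import Cfsg.Agent.RuRank.DataPts

/-!
Finite checks bounding the automorphism group of the orbital graph on 4060 points: signatures of
points with respect to 21 fixed points.
-/

set_option autoImplicit false
set_option maxRecDepth 100000
set_option Elab.async false

namespace Cfsg.Agent.RuRank.Bnd

open Cfsg.Agent.CosetCert

/-- The chosen point number `j`. -/
noncomputable def upt (j : ℕ) : ℕ := Dat.pts.getD j 0

/-- Adjacency to the point number `j`. -/
noncomputable def bitU (j y : ℕ) : Bool := Nat.testBit (Dat.rows.getD j 0) y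

/-- A product of letters applied to a point. -/
noncomputable def foldW (w : List ℕ) (y : ℕ) : ℕ := w.foldr SporOut.Ru.look y

/-- Adjacency to the point that a word sends to 0. -/
noncomputable def adjB (w : List ℕ) (y : ℕ) : Bool := Nat.beq (cls (foldW w y)) 1

/-- `y` and `z` have the same adjacencies to the first `k` points. -/
noncomputable def sameSig (k y z : ℕ) : Bool :=
  Nat.rec (motive := fun _ => Bool) true (fun j ih => (bitU j y == bitU j z) && ih) k

/-- `y` is different from the first `k` points. -/
noncomputable def notU (k y : ℕ) : Bool :=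
  Nat.rec (motive := fun _ => Bool) true (fun j ih => !Nat.beq y (upt j) && ih) k

/-- The points that can be images of `z` when the first `k` points are fixed. -/
noncomputable def inS (k z y : ℕ) : Bool :=
  Nat.blt y 4060 && (sameSig k y z && notU k y)

/-- Counting by halving. -/
noncomputable def cnt (f : ℕ → Bool) (d : ℕ) : ℕ → ℕ :=
  Nat.rec (motive := fun _ => ℕ → ℕ) (fun lo => bif f lo then 1 else 0)
    (fun k ih lo => Nat.add (ih lo) (ih (Nat.add lo (Nat.shiftLeft 1 k)))) d

/-- The points with the same adjacencies as `y` to the first `k` points, as a bit mask. -/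
noncomputable def cmask (k y : ℕ) : ℕ :=
  Nat.rec (motive := fun _ => ℕ) (2 ^ 4060 - 1)
    (fun j ih => bif bitU j y then Nat.land ih (Dat.rows.getD j 0)
      else Nat.xor ih (Nat.land ih (Dat.rows.getD j 0))) k

/-- A common neighbour of 0, 2305 and the point of a word. -/
noncomputable def comB (w : List ℕ) (y : ℕ) : Bool :=
  Nat.blt y 4060 && (bitU 0 y && (bitU 1 y && adjB w y))

/-- A neighbour of the point of a word among the points of the signature of 2599. -/
noncomputable def sepB (w : List ℕ) (y : ℕ) : Bool := inS 7 2599 y && adjB w y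

/-- The class of the stabilizer of two points. -/
noncomputable def hcl (y : ℕ) : ℕ := Dat.hClsT.get 4 y

/-- The word leading from the root of the class to a point. -/
noncomputable def hword (y : ℕ) : List ℕ := dec [10, 11] 16 (Dat.hWordT.get 64 y)

/-- The check on one candidate for the image of 3330. -/
noncomputable def refB (y : ℕ) : Bool :=
  !inS 2 3330 y || (Nat.beq (hcl y) 5 ||
    ((hword y).all (fun k => Nat.beq k 10 || Nat.beq k 11) &&
      ((Nat.beq (hcl y) 6 && Nat.beq (ap (hword y) 3331) y) ||
        (Nat.beq (hcl y) 7 && Nat.beq (ap (hword y) 3844) y))))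

/-- The check on one candidate for the image of 4024. -/
noncomputable def sevB (y : ℕ) : Bool :=
  !inS 7 4024 y ||
    (Nat.beq y 4024 || (Nat.beq y 3915 || (Nat.beq y 3917 || Nat.beq y 4009)))

theorem pts_lt : ∀ j : Fin 21, Nat.blt (upt j.val) 4060 = true := by decide +kernel

theorem pts_distinct : ∀ j : Fin 21, notU j.val (upt j.val) = true := by decide +kernel

theorem word_bounds : ∀ j : Fin 21, ∀ l ∈ Dat.ptWords.getD j.val [], 1 ≤ l ∧ l ≤ 7 := by decide +kernel

theorem word_zero : ∀ j : Fin 21, Nat.beq (foldW (Dat.ptWords.getD j.val []) (upt j.val)) 0 = true := by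
  decide +kernel

theorem fix_two : ∀ k : Fin 14, (k.val = 10 ∨ k.val = 11) → Nat.beq (tget k.val 2305) 2305 = true := by
  decide +kernel

theorem word_3331 : foldW [2, 6, 1, 4, 2] 3331 = 0 := by decide +kernel

theorem word_3844 : foldW [2, 7, 3, 1] 3844 = 0 := by decide +kernel

theorem word_3915 : foldW [1, 6, 1, 3, 4] 3915 = 0 := by decide +kernel

theorem word_3917 : foldW [3, 6, 5, 7, 4] 3917 = 0 := by decide +kernel

theorem word_4009 : foldW [1, 5, 2, 7] 4009 = 0 := by decide +kernel

theorem count_com_a : cnt (comB [1, 7, 1, 6, 1]) 12 0 = 217 := by decide +kernel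

theorem count_com_b : cnt (comB [2, 6, 1, 4, 2]) 12 0 = 281 := by decide +kernel

theorem count_com_c : cnt (comB [2, 7, 3, 1]) 12 0 = 345 := by decide +kernel

theorem count_sep_a : cnt (sepB [4, 2, 1, 4, 1]) 12 0 = 5 := by decide +kernel

theorem count_sep_b : cnt (sepB [1, 6, 1, 3, 4]) 12 0 = 0 := by decide +kernel

theorem count_sep_c : cnt (sepB [3, 6, 5, 7, 4]) 12 0 = 1 := by decide +kernel

theorem count_sep_d : cnt (sepB [1, 5, 2, 7]) 12 0 = 4 := by decide +kernel

theorem count_ref : cnt (fun y => inS 2 3330 y && Nat.beq (hcl y) 5) 12 0 = 10 := by decide +kernel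

theorem ref_ok : allB (fun y => Nat.ble 4060 y || refB y) 12 0 = true := by decide +kernel

theorem sev_ok : allB (fun y => Nat.ble 4060 y || sevB y) 12 0 = true := by decide +kernel

theorem size_one : cnt (inS 1 (upt 1)) 12 0 = 1755 := by decide +kernel

theorem size_three : cnt (inS 3 (upt 3)) 12 0 = 217 := by decide +kernel

theorem size_four : cnt (inS 4 (upt 4)) 12 0 = 88 := by decide +kernel

theorem size_five : cnt (inS 5 (upt 5)) 12 0 = 27 := by decide +kernel

theorem size_six : cnt (inS 6 (upt 6)) 12 0 = 10 := by decide +kernel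

theorem tail8 : Nat.beq (cnt (inS 8 (upt 8)) 12 0) 1 = true := by decide +kernel

theorem tail9 : Nat.beq (cnt (inS 9 (upt 9)) 12 0) 1 = true := by decide +kernel

theorem tail10 : Nat.beq (cnt (inS 10 (upt 10)) 12 0) 1 = true := by decide +kernel

theorem tail11 : Nat.beq (cnt (inS 11 (upt 11)) 12 0) 1 = true := by decide +kernel

theorem tail12 : Nat.beq (cnt (inS 12 (upt 12)) 12 0) 1 = true := by decide +kernel

theorem tail13 : Nat.beq (cnt (inS 13 (upt 13)) 12 0) 1 = true := by decide +kernel

theorem tail14 : Nat.beq (cnt (inS 14 (upt 14)) 12 0) 1 = true := by decide +kernel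

theorem tail15 : Nat.beq (cnt (inS 15 (upt 15)) 12 0) 1 = true := by decide +kernel

theorem tail16 : Nat.beq (cnt (inS 16 (upt 16)) 12 0) 1 = true := by decide +kernel

theorem tail17 : Nat.beq (cnt (inS 17 (upt 17)) 12 0) 1 = true := by decide +kernel

theorem tail18 : Nat.beq (cnt (inS 18 (upt 18)) 12 0) 1 = true := by decide +kernel

theorem tail19 : Nat.beq (cnt (inS 19 (upt 19)) 12 0) 1 = true := by decide +kernel

theorem tail20 : Nat.beq (cnt (inS 20 (upt 20)) 12 0) 1 = true := by decide +kernel

theorem size_tail : ∀ j : Fin 13, Nat.beq (cnt (inS (j.val + 8) (upt (j.val + 8))) 12 0) 1 = true := by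
  intro j
  fin_cases j
  · exact tail8
  · exact tail9
  · exact tail10
  · exact tail11
  · exact tail12
  · exact tail13
  · exact tail14
  · exact tail15
  · exact tail16
  · exact tail17
  · exact tail18
  · exact tail19
  · exact tail20

theorem mask_a : allB (fun y => Nat.ble 4060 y || Nat.beq (cmask 21 y) (Nat.shiftLeft 1 y)) 10 0 = true := by
  decide +kernel

theorem mask_b : allB (fun y => Nat.ble 4060 y || Nat.beq (cmask 21 y) (Nat.shiftLeft 1 y)) 10 1024 = true := by
  decide +kernel

theorem mask_c : allB (fun y => Nat.ble 4060 y || Nat.beq (cmask 21 y) (Nat.shiftLeft 1 y)) 10 2048 = true := by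
  decide +kernel

theorem mask_d : allB (fun y => Nat.ble 4060 y || Nat.beq (cmask 21 y) (Nat.shiftLeft 1 y)) 10 3072 = true := by
  decide +kernel

theorem mask_ok {y : ℕ} (hy : y < 4060) : Nat.beq (cmask 21 y) (Nat.shiftLeft 1 y) = true := by
  have h : (Nat.ble 4060 y || Nat.beq (cmask 21 y) (Nat.shiftLeft 1 y)) = true := by
    rcases lt_or_ge y 1024 with h | h
    · exact allB_spec mask_a y (Nat.zero_le _) (by omega)
    · rcases lt_or_ge y 2048 with h' | h'
      · exact allB_spec mask_b y h (by omega)
      · rcases lt_or_ge y 3072 with h'' | h''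
        · exact allB_spec mask_c y h' (by omega)
        · exact allB_spec mask_d y h'' (by omega)
  rw [Bool.or_eq_true] at h
  exact h.resolve_left fun e => absurd (Nat.le_of_ble_eq_true e) (not_le.2 hy)

end Cfsg.Agent.RuRank.Bnd
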