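import Cfsg.Agent.RuRank.BoundRowsA

/-!
The bit masks are the neighbourhoods of the 21 points.
-/

set_option autoImplicit false
set_option maxRecDepth 100000
set_option Elab.async false

namespace Cfsg.Agent.RuRank.Bnd

open Cfsg.Agent.CosetCert

theorem row14 : allB (fun y => Nat.ble 4060 y || rowB 14 y) 12 0 = true := by decide +kernel

theorem row15 : allB (fun y => Nat.ble 4060 y || rowB 15 y) 12 0 = true := by decide +kernel

theorem row16 : allB (fun y => Nat.ble 4060 y || rowB 16 y) 12 0 = true := by decide +kernel

theorem row17 : allB (fun y => Nat.ble 4060 y || rowB 17 y) 12 0 = true := by decide +kernel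

theorem row18 : allB (fun y => Nat.ble 4060 y || rowB 18 y) 12 0 = true := by decide +kernel

theorem row19 : allB (fun y => Nat.ble 4060 y || rowB 19 y) 12 0 = true := by decide +kernel

theorem row20 : allB (fun y => Nat.ble 4060 y || rowB 20 y) 12 0 = true := by decide +kernel

end Cfsg.Agent.RuRank.Bnd
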