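import Cfsg.Agent.RuRank.BoundRowsB
import Cfsg.Agent.RuRank.BoundRowsC

/-!
The stabilizer of a point in the automorphism group of the orbital graph is small: a chain of
stabilizers of 21 points.
-/

set_option autoImplicit false
set_option maxRecDepth 100000

namespace Cfsg.Agent.RuRank.Bnd

open Cfsg.Agent.CosetCert MulAction

/-- The law describing the graph through the classes. -/
def AdjLaw : Prop :=
  ∀ (g : Equiv.Perm (Fin 4060)) (i j : Fin 4060), g ∈ RK → g i = 0 → (Adj i j ↔ cls (g j : ℕ) = 1)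

theorem adj_move {g : Equiv.Perm (Fin 4060)} (hg : g ∈ RK) (i j : Fin 4060) :
    Adj (g i) (g j) ↔ Adj i j := by
  constructor
  · rintro ⟨h, hh, h0, h1⟩
    exact ⟨h * g, mul_mem hh hg, h0, h1⟩
  · rintro ⟨h, hh, h0, h1⟩
    exact ⟨h * g⁻¹, mul_mem hh (inv_mem hg), by simp [h0], by simp [h1]⟩

theorem adj_word (hA : AdjLaw) {w : List ℕ} (hw : ∀ l ∈ w, 1 ≤ l ∧ l ≤ 7) {u : Fin 4060}
    (hu : foldW w u.val = 0) (y : Fin 4060) : Adj u y ↔ adjB w y.val = true := by
  have hg := sigW_apply w hw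
  have hm : (w.map SporOut.Ru.sig).prod ∈ RK := list_prod_mem fun p hp => by
    obtain ⟨l, -, rfl⟩ := List.mem_map.1 hp
    exact SporOut.Ru.sig_mem l
  rw [hA _ u y hm (Fin.ext ((hg u).trans hu)), hg y]
  exact ⟨fun h => by simp [adjB, foldW, h], fun h => Nat.eq_of_beq_eq_true h⟩

/-- The point number `j`. -/
noncomputable def pt (j : ℕ) : Fin 4060 := if h : upt j < 4060 then ⟨upt j, h⟩ else 0

theorem pt_val {j : ℕ} (hj : j < 21) : (pt j : ℕ) = upt j := by
  have h : upt j < 4060 := Nat.le_of_ble_eq_true (pts_lt ⟨j, hj⟩)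
  rw [pt, dif_pos h]

theorem adj_pt (hA : AdjLaw) {j : ℕ} (hj : j < 21) (y : Fin 4060) :
    Adj (pt j) y ↔ bitU j y.val = true := by
  have hrow : bitU j y.val = adjB (Dat.ptWords.getD j []) y.val := by
    interval_cases j
    · exact beq_iff_eq.1 (SporOut.Ru.of_allB row0 y.val y.2)
    · exact beq_iff_eq.1 (SporOut.Ru.of_allB row1 y.val y.2)
    · exact beq_iff_eq.1 (SporOut.Ru.of_allB row2 y.val y.2)
    · exact beq_iff_eq.1 (SporOut.Ru.of_allB row3 y.val y.2)
    · exact beq_iff_eq.1 (SporOut.Ru.of_allB row4 y.val y.2)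
    · exact beq_iff_eq.1 (SporOut.Ru.of_allB row5 y.val y.2)
    · exact beq_iff_eq.1 (SporOut.Ru.of_allB row6 y.val y.2)
    · exact beq_iff_eq.1 (SporOut.Ru.of_allB row7 y.val y.2)
    · exact beq_iff_eq.1 (SporOut.Ru.of_allB row8 y.val y.2)
    · exact beq_iff_eq.1 (SporOut.Ru.of_allB row9 y.val y.2)
    · exact beq_iff_eq.1 (SporOut.Ru.of_allB row10 y.val y.2)
    · exact beq_iff_eq.1 (SporOut.Ru.of_allB row11 y.val y.2)
    · exact beq_iff_eq.1 (SporOut.Ru.of_allB row12 y.val y.2)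
    · exact beq_iff_eq.1 (SporOut.Ru.of_allB row13 y.val y.2)
    · exact beq_iff_eq.1 (SporOut.Ru.of_allB row14 y.val y.2)
    · exact beq_iff_eq.1 (SporOut.Ru.of_allB row15 y.val y.2)
    · exact beq_iff_eq.1 (SporOut.Ru.of_allB row16 y.val y.2)
    · exact beq_iff_eq.1 (SporOut.Ru.of_allB row17 y.val y.2)
    · exact beq_iff_eq.1 (SporOut.Ru.of_allB row18 y.val y.2)
    · exact beq_iff_eq.1 (SporOut.Ru.of_allB row19 y.val y.2)
    · exact beq_iff_eq.1 (SporOut.Ru.of_allB row20 y.val y.2)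
  rw [hrow]
  refine adj_word hA (word_bounds ⟨j, hj⟩) ?_ y
  rw [pt_val hj]
  exact Nat.eq_of_beq_eq_true (word_zero ⟨j, hj⟩)

/-- The chain of stabilizers. -/
noncomputable def chain : ℕ → Subgroup (Equiv.Perm (Fin 4060))
  | 0 => autG
  | k + 1 => chain k ⊓ stabilizer (Equiv.Perm (Fin 4060)) (pt k)

theorem chain_mem : ∀ {k : ℕ} {g : Equiv.Perm (Fin 4060)}, g ∈ chain k →
    g ∈ autG ∧ ∀ j < k, g (pt j) = pt j
  | 0, _, h => ⟨h, fun _ hj => absurd hj (Nat.not_lt_zero _)⟩
  | k + 1, g, h => by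
    obtain ⟨h1, h2⟩ := Subgroup.mem_inf.1 h
    refine ⟨(chain_mem h1).1, fun j hj => ?_⟩
    rcases Nat.lt_succ_iff_lt_or_eq.1 hj with hj | rfl
    · exact (chain_mem h1).2 j hj
    · exact mem_stabilizer_iff.1 h2

theorem bitU_map (hA : AdjLaw) {k : ℕ} {g : Equiv.Perm (Fin 4060)} (hg : g ∈ chain k) {j : ℕ}
    (hj : j < k) (hk : k ≤ 21) (y : Fin 4060) : bitU j (g y : ℕ) = bitU j y.val := by
  obtain ⟨ha, hf⟩ := chain_mem hg
  rw [Bool.eq_iff_iff, ← adj_pt hA (lt_of_lt_of_le hj hk), ← adj_pt hA (lt_of_lt_of_le hj hk)]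
  conv_lhs => rw [← hf j hj]
  exact ha _ _

theorem notU_iff (y : ℕ) : ∀ k, notU k y = true ↔ ∀ j < k, y ≠ upt j
  | 0 => ⟨fun _ _ hj => absurd hj (Nat.not_lt_zero _), fun _ => rfl⟩
  | k + 1 => by
    show (!Nat.beq y (upt k) && notU k y) = true ↔ _
    rw [Bool.and_eq_true, notU_iff y k, Bool.not_eq_true', Nat.forall_lt_succ_right, and_comm]
    refine and_congr_right fun _ => ⟨fun h e => ?_, fun h => ?_⟩
    · rw [e] at h
      exact Nat.ne_of_beq_eq_false h rfl
    · cases e : Nat.beq y (upt k)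
      · rfl
      · exact absurd (Nat.eq_of_beq_eq_true e) h

theorem sameSig_iff (y z : ℕ) : ∀ k, sameSig k y z = true ↔ ∀ j < k, bitU j y = bitU j z
  | 0 => ⟨fun _ _ hj => absurd hj (Nat.not_lt_zero _), fun _ => rfl⟩
  | k + 1 => by
    show ((bitU k y == bitU k z) && sameSig k y z) = true ↔ _
    rw [Bool.and_eq_true, sameSig_iff y z k, beq_iff_eq, Nat.forall_lt_succ_right, and_comm]

theorem inS_lt {k z y : ℕ} (h : inS k z y = true) : y < 4060 := by
  rw [inS, Bool.and_eq_true] at h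
  exact Nat.le_of_ble_eq_true h.1

theorem inS_map (hA : AdjLaw) {k z : ℕ} (hk : k ≤ 21) {g : Equiv.Perm (Fin 4060)} (hg : g ∈ chain k)
    {y : Fin 4060} (h : inS k z y.val = true) : inS k z (g y : ℕ) = true := by
  simp only [inS, Bool.and_eq_true, notU_iff, sameSig_iff] at h ⊢
  refine ⟨Nat.ble_eq_true_of_le (g y).2, fun j hj => ?_, fun j hj e => ?_⟩
  · rw [bitU_map hA hg hj hk y]
    exact h.2.1 j hj
  · refine h.2.2 j hj ?_
    have hp := pt_val (lt_of_lt_of_le hj hk)
    have : g y = g (pt j) := by rw [(chain_mem hg).2 j hj]; exact Fin.ext (e.trans hp.symm)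
    rw [g.injective this, hp]

theorem inS_self {k : ℕ} (hk : k < 21) : inS k (upt k) (upt k) = true := by
  simp only [inS, Bool.and_eq_true]
  exact ⟨pts_lt ⟨k, hk⟩, (sameSig_iff _ _ k).2 fun _ _ => rfl, pts_distinct ⟨k, hk⟩⟩

theorem cnt_spec (f : ℕ → Bool) : ∀ d lo, cnt f d lo =
    ((Finset.Ico lo (lo + 2 ^ d)).filter fun i => f i = true).card
  | 0, lo => by
    show (bif f lo then 1 else 0) = _
    rw [pow_zero, Nat.Ico_succ_singleton, Finset.filter_singleton]
    cases f lo <;> simp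
  | d + 1, lo => by
    show cnt f d lo + cnt f d (lo + Nat.shiftLeft 1 d) = _
    have e : Nat.shiftLeft 1 d = 2 ^ d := by
      show 1 <<< d = 2 ^ d
      rw [Nat.shiftLeft_eq, one_mul]
    rw [e, cnt_spec f d lo, cnt_spec f d (lo + 2 ^ d),
      ← Finset.card_union_of_disjoint (Finset.disjoint_filter_filter
        (Finset.Ico_disjoint_Ico_consecutive _ _ _)), ← Finset.filter_union,
      Finset.Ico_union_Ico_eq_Ico (Nat.le_add_right _ _) (Nat.le_add_right _ _), pow_succ]
    congr 3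
    omega

theorem ncard_eq_cnt (f : ℕ → Bool) (hf : ∀ y, f y = true → y < 4060) :
    {y : Fin 4060 | f y.val = true}.ncard = cnt f 12 0 := by
  rw [cnt_spec, Set.ncard_eq_toFinset_card', ← Finset.card_map Fin.valEmbedding]
  congr 1
  ext y
  simp only [Finset.mem_map, Set.mem_toFinset, Set.mem_setOf_eq, Fin.valEmbedding_apply,
    Finset.mem_filter, Finset.mem_Ico]
  constructor
  · rintro ⟨a, ha, rfl⟩
    exact ⟨⟨Nat.zero_le _, by have := a.2; omega⟩, ha⟩
  · rintro ⟨-, h⟩
    exact ⟨⟨y, hf y h⟩, h, rfl⟩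

theorem card_le_mul {α : Type*} [Finite α] (H : Subgroup (Equiv.Perm α)) (x : α) (s : Set α)
    (h : ∀ g ∈ H, g x ∈ s) :
    Nat.card H ≤ s.ncard * Nat.card (H ⊓ stabilizer (Equiv.Perm α) x : Subgroup (Equiv.Perm α)) := by
  have e : Nat.card (stabilizer H x) =
      Nat.card (H ⊓ stabilizer (Equiv.Perm α) x : Subgroup (Equiv.Perm α)) :=
    Nat.card_congr
      { toFun := fun g => ⟨(g.1 : Equiv.Perm α), g.1.2, g.2⟩
        invFun := fun g => ⟨⟨g.1, g.2.1⟩, g.2.2⟩
        left_inv := fun _ => rfl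
        right_inv := fun _ => rfl }
  have ho : (orbit H x).ncard ≤ s.ncard := Set.ncard_le_ncard (by
    rintro _ ⟨g, rfl⟩
    exact h g.1 g.2) (Set.toFinite s)
  rw [← Subgroup.card_mul_index (stabilizer H x), index_stabilizer, e, mul_comm]
  exact Nat.mul_le_mul_right _ ho

theorem chain_le (hA : AdjLaw) {k c : ℕ} (hk : k < 21) (hc : cnt (inS k (upt k)) 12 0 = c) :
    Nat.card (chain k) ≤ c * Nat.card (chain (k + 1)) := by
  rw [← hc, ← ncard_eq_cnt _ fun _ => inS_lt]
  exact card_le_mul (chain k) (pt k) _ fun g hg =>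
    inS_map hA hk.le hg (by rw [pt_val hk]; exact inS_self hk)

/-- The common neighbours of 0, 2305 and a point. -/
def com (u : Fin 4060) : Set (Fin 4060) := {y | Adj (pt 0) y ∧ Adj (pt 1) y ∧ Adj u y}

theorem com_map {g : Equiv.Perm (Fin 4060)} (hg : g ∈ chain 2) (u : Fin 4060) :
    (com (g u)).ncard = (com u).ncard := by
  obtain ⟨ha, hf⟩ := chain_mem hg
  have e : com (g u) = g '' com u := by
    ext y
    obtain ⟨y, rfl⟩ := g.surjective y
    rw [g.injective.mem_set_image]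
    simp only [com, Set.mem_setOf_eq]
    conv_lhs => rw [← hf 0 (by norm_num), ← hf 1 (by norm_num)]
    simp only [ha _ _]
  rw [e, Set.ncard_image_of_injective _ g.injective]

theorem com_word (hA : AdjLaw) {w : List ℕ} (hw : ∀ l ∈ w, 1 ≤ l ∧ l ≤ 7) {u : Fin 4060}
    (hu : foldW w u.val = 0) : (com u).ncard = cnt (comB w) 12 0 := by
  rw [← ncard_eq_cnt (comB w) fun y h => by
    rw [comB, Bool.and_eq_true] at h
    exact Nat.le_of_ble_eq_true h.1]
  congr 1
  ext y
  simp only [com, Set.mem_setOf_eq, comB, Bool.and_eq_true, adj_pt hA (show 0 < 21 by norm_num),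
    adj_pt hA (show 1 < 21 by norm_num), adj_word hA hw hu]
  exact ⟨fun h => ⟨Nat.ble_eq_true_of_le y.2, h⟩, fun h => h.2⟩

theorem pt_zero : pt 0 = 0 := Fin.ext (by rw [pt_val (by norm_num)]; rfl)

theorem el_chain_two {k : ℕ} (hk : k = 10 ∨ k = 11) : el k ∈ chain 2 := by
  have h14 : k < 14 := by omega
  have h0 : el k (pt 0) = pt 0 := by rw [pt_zero]; exact el_zero h14
  have h1 : el k (pt 1) = pt 1 := Fin.ext (by
    rw [el_apply h14, pt_val (by norm_num)]
    exact Nat.eq_of_beq_eq_true (fix_two ⟨k, h14⟩ hk))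
  exact Subgroup.mem_inf.2 ⟨Subgroup.mem_inf.2
    ⟨fun i j => adj_move (el_mem_RK k) i j, h0⟩, h1⟩

theorem chain_two (hA : AdjLaw) : Nat.card (chain 2) ≤ 10 * Nat.card (chain 3) := by
  rw [← count_ref, ← ncard_eq_cnt _ fun y (h : (inS 2 3330 y && Nat.beq (hcl y) 5) = true) =>
    inS_lt (Bool.and_eq_true_iff.1 h).1]
  refine card_le_mul (chain 2) (pt 2) _ fun g hg => ?_
  have h1 : inS 2 3330 (g (pt 2) : ℕ) = true :=
    inS_map hA (by norm_num) hg (by rw [pt_val (by norm_num)]; exact inS_self (k := 2) (by norm_num))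
  have hN : (com (g (pt 2))).ncard = 217 := by
    rw [com_map hg, com_word hA (w := [1, 7, 1, 6, 1]) (by decide)
      (by rw [pt_val (by norm_num)]; exact Nat.eq_of_beq_eq_true (word_zero 2))]
    exact count_com_a
  show (inS 2 3330 (g (pt 2) : ℕ) && Nat.beq (hcl (g (pt 2) : ℕ)) 5) = true
  rw [h1, Bool.true_and]
  have h2 := SporOut.Ru.of_allB ref_ok _ (g (pt 2)).2
  rw [refB, h1, Bool.not_true, Bool.false_or, Bool.or_eq_true, Bool.and_eq_true,
    Bool.or_eq_true] at h2
  rcases h2 with h2 | ⟨hl, h2⟩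
  · exact h2
  have hl' : ∀ k ∈ hword (g (pt 2) : ℕ), k = 10 ∨ k = 11 := fun k hk => by
    have := List.all_eq_true.1 hl k hk
    rw [Bool.or_eq_true] at this
    exact this.imp Nat.eq_of_beq_eq_true Nat.eq_of_beq_eq_true
  have hmem : wEl (hword (g (pt 2) : ℕ)) ∈ chain 2 := list_prod_mem fun p hp => by
    obtain ⟨k, hk, rfl⟩ := List.mem_map.1 hp
    exact el_chain_two (hl' k hk)
  have key : ∀ (r : Fin 4060) (w : List ℕ), (∀ l ∈ w, 1 ≤ l ∧ l ≤ 7) → foldW w r.val = 0 →
      ap (hword (g (pt 2) : ℕ)) r.val = (g (pt 2) : ℕ) → cnt (comB w) 12 0 = 217 := by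
    intro r w hw hr hp
    have e : wEl (hword (g (pt 2) : ℕ)) r = g (pt 2) :=
      Fin.ext ((wEl_apply _ (fun k hk => by rcases hl' k hk with e | e <;> omega) r).trans hp)
    rw [← com_word hA hw hr, ← com_map hmem, e, hN]
  exfalso
  rcases h2 with h2 | h2 <;> rw [Bool.and_eq_true] at h2
  · have := key ⟨3331, by norm_num⟩ [2, 6, 1, 4, 2] (by decide) word_3331
      (Nat.eq_of_beq_eq_true h2.2)
    rw [count_com_b] at this
    exact absurd this (by norm_num)
  · have := key ⟨3844, by norm_num⟩ [2, 7, 3, 1] (by decide) word_3844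
      (Nat.eq_of_beq_eq_true h2.2)
    rw [count_com_c] at this
    exact absurd this (by norm_num)

/-- The neighbours of a point among the points of the signature of 2599. -/
def sep (u : Fin 4060) : Set (Fin 4060) := {y | inS 7 2599 y.val = true ∧ Adj u y}

theorem sep_map (hA : AdjLaw) {g : Equiv.Perm (Fin 4060)} (hg : g ∈ chain 7) (u : Fin 4060) :
    (sep (g u)).ncard = (sep u).ncard := by
  have e : sep (g u) = g '' sep u := by
    ext y
    obtain ⟨y, rfl⟩ := g.surjective y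
    rw [g.injective.mem_set_image]
    simp only [sep, Set.mem_setOf_eq, (chain_mem hg).1 u y]
    refine and_congr_left fun _ => ⟨fun h => ?_, inS_map hA (by norm_num) hg⟩
    simpa using inS_map hA (by norm_num) (inv_mem hg) h
  rw [e, Set.ncard_image_of_injective _ g.injective]

theorem sep_word (hA : AdjLaw) {w : List ℕ} (hw : ∀ l ∈ w, 1 ≤ l ∧ l ≤ 7) {u : Fin 4060}
    (hu : foldW w u.val = 0) : (sep u).ncard = cnt (sepB w) 12 0 := by
  rw [← ncard_eq_cnt (sepB w) fun y h => inS_lt (Bool.and_eq_true_iff.1 h).1]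
  congr 1
  ext y
  simp only [sep, Set.mem_setOf_eq, sepB, Bool.and_eq_true, adj_word hA hw hu]

theorem chain_seven (hA : AdjLaw) : Nat.card (chain 7) ≤ 1 * Nat.card (chain 8) := by
  refine (card_le_mul (chain 7) (pt 7) {pt 7} fun g hg => ?_).trans
    (Nat.mul_le_mul_right _ (Set.ncard_singleton _).le)
  have h1 : inS 7 4024 (g (pt 7) : ℕ) = true :=
    inS_map hA (by norm_num) hg (by rw [pt_val (by norm_num)]; exact inS_self (k := 7) (by norm_num))
  have hN : (sep (g (pt 7))).ncard = 5 := by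
    rw [sep_map hA hg, sep_word hA (w := [4, 2, 1, 4, 1]) (by decide)
      (by rw [pt_val (by norm_num)]; exact Nat.eq_of_beq_eq_true (word_zero 7))]
    exact count_sep_a
  have h2 := SporOut.Ru.of_allB sev_ok _ (g (pt 7)).2
  rw [sevB, h1, Bool.not_true, Bool.false_or, Bool.or_eq_true, Bool.or_eq_true,
    Bool.or_eq_true] at h2
  have key : ∀ w : List ℕ, (∀ l ∈ w, 1 ≤ l ∧ l ≤ 7) → foldW w (g (pt 7) : ℕ) = 0 →
      cnt (sepB w) 12 0 = 5 := fun w hw hr => by rw [← sep_word hA hw hr, hN]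
  rcases h2 with h2 | h2 | h2 | h2 <;> replace h2 := Nat.eq_of_beq_eq_true h2
  · refine Fin.ext ?_
    rw [h2, pt_val (by norm_num)]
    rfl
  · have := key [1, 6, 1, 3, 4] (by decide) (h2 ▸ word_3915)
    rw [count_sep_b] at this
    exact absurd this (by norm_num)
  · have := key [3, 6, 5, 7, 4] (by decide) (h2 ▸ word_3917)
    rw [count_sep_c] at this
    exact absurd this (by norm_num)
  · have := key [1, 5, 2, 7] (by decide) (h2 ▸ word_4009)
    rw [count_sep_d] at this
    exact absurd this (by norm_num)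

theorem cmask_bit (y z : ℕ) (hz : z < 4060) : ∀ k, sameSig k y z = true →
    Nat.testBit (cmask k y) z = true
  | 0, _ => by
    show Nat.testBit (2 ^ 4060 - 1) z = true
    rw [Nat.testBit_two_pow_sub_one]
    exact decide_eq_true hz
  | k + 1, h => by
    have h' : (bitU k y == bitU k z) = true ∧ sameSig k y z = true := Bool.and_eq_true_iff.1 h
    have ih := cmask_bit y z hz k h'.2
    have hb : bitU k y = Nat.testBit (Dat.rows.getD k 0) z := beq_iff_eq.1 h'.1
    show Nat.testBit (bif bitU k y then cmask k y &&& Dat.rows.getD k 0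
      else cmask k y ^^^ (cmask k y &&& Dat.rows.getD k 0)) z = true
    cases hy : bitU k y <;> rw [hy] at hb
    · rw [cond_false, Nat.testBit_xor, Nat.testBit_and, ih, ← hb]
      rfl
    · rw [cond_true, Nat.testBit_and, ih, ← hb]
      rfl

theorem chain_last (hA : AdjLaw) : Nat.card (chain 21) = 1 := by
  rw [Subgroup.card_eq_one, Subgroup.eq_bot_iff_forall]
  intro g hg
  refine Equiv.ext fun y => Fin.ext ?_
  have hs : sameSig 21 y.val (g y : ℕ) = true :=
    (sameSig_iff _ _ 21).2 fun j hj => (bitU_map hA hg hj le_rfl y).symm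
  have h := cmask_bit y.val _ (g y).2 21 hs
  rw [Nat.eq_of_beq_eq_true (mask_ok y.2)] at h
  have h' : Nat.testBit (1 <<< y.val) (g y : ℕ) = true := h
  rw [Nat.shiftLeft_eq, one_mul, Nat.testBit_two_pow] at h'
  exact (of_decide_eq_true h').symm

theorem chain_tail (hA : AdjLaw) : ∀ i ≤ 13, Nat.card (chain (21 - i)) ≤ 1
  | 0, _ => (chain_last hA).le
  | i + 1, hi => by
    have h := chain_le hA (k := 21 - (i + 1)) (c := 1) (by omega) (by
      have h' := Nat.eq_of_beq_eq_true (size_tail ⟨12 - i, by omega⟩)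
      simpa only [show 12 - i + 8 = 21 - (i + 1) by omega] using h')
    rw [show 21 - (i + 1) + 1 = 21 - i by omega, one_mul] at h
    exact h.trans (chain_tail hA i (by omega))

theorem card_chain_one (hA : AdjLaw) :
    Nat.card (chain 1) ≤ 1755 * (10 * (217 * (88 * (27 * (10 * 1))))) := by
  refine (chain_le hA (by norm_num) size_one).trans (Nat.mul_le_mul_left _ ?_)
  refine (chain_two hA).trans (Nat.mul_le_mul_left _ ?_)
  refine (chain_le hA (by norm_num) size_three).trans (Nat.mul_le_mul_left _ ?_)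
  refine (chain_le hA (by norm_num) size_four).trans (Nat.mul_le_mul_left _ ?_)
  refine (chain_le hA (by norm_num) size_five).trans (Nat.mul_le_mul_left _ ?_)
  refine (chain_le hA (by norm_num) size_six).trans (Nat.mul_le_mul_left _ ?_)
  refine (chain_seven hA).trans ?_
  rw [one_mul]
  exact chain_tail hA 13 le_rfl

theorem card_stab_lt (hA : AdjLaw) :
    Nat.card ↥(autG ⊓ stabilizer (Equiv.Perm (Fin 4060)) (0 : Fin 4060)) < 4060 * 35942400 := by
  have h := card_chain_one hA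
  have e : chain 1 = autG ⊓ stabilizer (Equiv.Perm (Fin 4060)) (0 : Fin 4060) := by
    show autG ⊓ stabilizer (Equiv.Perm (Fin 4060)) (pt 0) = _
    rw [pt_zero]
  rw [e] at h
  exact lt_of_le_of_lt h (by norm_num)

end Cfsg.Agent.RuRank.Bnd
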