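import Cfsg.Agent.RuRank.BoundCheck

/-!
The bit masks are the neighbourhoods of the 21 points.
-/

set_option autoImplicit false
set_option maxRecDepth 100000
set_option Elab.async false

namespace Cfsg.Agent.RuRank.Bnd

open Cfsg.Agent.CosetCert

/-- The check of one row at one point. -/
noncomputable def rowB (j y : ℕ) : Bool := bitU j y == adjB (Dat.ptWords.getD j []) y

theorem row0 : allB (fun y => Nat.ble 4060 y || rowB 0 y) 12 0 = true := by decide +kernel

theorem row1 : allB (fun y => Nat.ble 4060 y || rowB 1 y) 12 0 = true := by decide +kernel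

theorem row2 : allB (fun y => Nat.ble 4060 y || rowB 2 y) 12 0 = true := by decide +kernel

theorem row3 : allB (fun y => Nat.ble 4060 y || rowB 3 y) 12 0 = true := by decide +kernel

theorem row4 : allB (fun y => Nat.ble 4060 y || rowB 4 y) 12 0 = true := by decide +kernel

theorem row5 : allB (fun y => Nat.ble 4060 y || rowB 5 y) 12 0 = true := by decide +kernel

theorem row6 : allB (fun y => Nat.ble 4060 y || rowB 6 y) 12 0 = true := by decide +kernel

end Cfsg.Agent.RuRank.Bnd
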