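import Cfsg.Agent.RuRank.BoundRowsA

/-!
The bit masks are the neighbourhoods of the 21 points.
-/

set_option autoImplicit false
set_option maxRecDepth 100000
set_option Elab.async false

namespace Cfsg.Agent.RuRank.Bnd

open Cfsg.Agent.CosetCert

theorem row7 : allB (fun y => Nat.ble 4060 y || rowB 7 y) 12 0 = true := by decide +kernel

theorem row8 : allB (fun y => Nat.ble 4060 y || rowB 8 y) 12 0 = true := by decide +kernel

theorem row9 : allB (fun y => Nat.ble 4060 y || rowB 9 y) 12 0 = true := by decide +kernel

theorem row10 : allB (fun y => Nat.ble 4060 y || rowB 10 y) 12 0 = true := by decide +kernel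

theorem row11 : allB (fun y => Nat.ble 4060 y || rowB 11 y) 12 0 = true := by decide +kernel

theorem row12 : allB (fun y => Nat.ble 4060 y || rowB 12 y) 12 0 = true := by decide +kernel

theorem row13 : allB (fun y => Nat.ble 4060 y || rowB 13 y) 12 0 = true := by decide +kernel

end Cfsg.Agent.RuRank.Bnd
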