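import Cfsg.Agent.RuRank.Facts

/-!
Conjugation of subgroups of the point stabilizer.
-/

set_option autoImplicit false

namespace Cfsg.Agent.RuRank

open MulAction

/-- Conjugate of a subgroup. -/
def cj (g : Equiv.Perm (Fin 4060)) (H : Subgroup (Equiv.Perm (Fin 4060))) : Subgroup (Equiv.Perm (Fin 4060)) :=
  H.map (MulAut.conj g).toMonoidHom

theorem mem_cj {g x : Equiv.Perm (Fin 4060)} {H : Subgroup (Equiv.Perm (Fin 4060))} :
    x ∈ cj g H ↔ g⁻¹ * x * g ∈ H := by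
  constructor
  · rintro ⟨y, hy, rfl⟩
    simpa [mul_assoc] using hy
  · exact fun h => ⟨_, h, by simp [mul_assoc]⟩

theorem cj_cj (g h : Equiv.Perm (Fin 4060)) (H : Subgroup (Equiv.Perm (Fin 4060))) :
    cj g (cj h H) = cj (g * h) H := by
  ext x
  simp [mem_cj, mul_assoc]

theorem cj_one (H : Subgroup (Equiv.Perm (Fin 4060))) : cj 1 H = H := by
  ext x
  simp [mem_cj]

theorem card_cj (g : Equiv.Perm (Fin 4060)) (H : Subgroup (Equiv.Perm (Fin 4060))) :
    Nat.card (cj g H) = Nat.card H :=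
  Subgroup.card_map_of_injective (MulEquiv.injective _)

theorem cj_mono {g : Equiv.Perm (Fin 4060)} {A B : Subgroup (Equiv.Perm (Fin 4060))} (h : A ≤ B) :
    cj g A ≤ cj g B := Subgroup.map_mono h

theorem cj_S0 {g : Equiv.Perm (Fin 4060)} (hg : g ∈ S0) : cj g S0 = S0 := by
  ext x
  rw [mem_cj]
  exact ⟨fun h => by simpa [mul_assoc] using mul_mem (mul_mem hg h) (inv_mem hg),
    fun h => mul_mem (mul_mem (inv_mem hg) h) hg⟩

theorem cj_stab {g : Equiv.Perm (Fin 4060)} (hg : g ∈ S0) (r : Fin 4060) :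
    cj g (S0 ⊓ stabilizer (Equiv.Perm (Fin 4060)) r) = S0 ⊓ stabilizer (Equiv.Perm (Fin 4060)) (g r) := by
  ext x
  rw [mem_cj, Subgroup.mem_inf, Subgroup.mem_inf, mem_stabilizer_iff, mem_stabilizer_iff]
  have e : g⁻¹ * x * g ∈ S0 ↔ x ∈ S0 := by
    rw [← mem_cj, cj_S0 hg]
  rw [e]
  simp only [Equiv.Perm.smul_def, Equiv.Perm.mul_apply, Equiv.Perm.inv_def, Equiv.symm_apply_eq]

theorem conj_of_card {p k : ℕ} [Fact p.Prime] {A B : Subgroup (Equiv.Perm (Fin 4060))} (hA : A ≤ S0) (hB : B ≤ S0)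
    (cA : Nat.card A = p ^ k) (cB : Nat.card B = p ^ k) (hp : (35942400 : ℕ).factorization p = k) :
    ∃ g ∈ S0, B = cj g A := by
  haveI : Finite S0 := inferInstance
  have cA' : Nat.card (A.subgroupOf S0) = p ^ (Nat.card S0).factorization p := by
    rw [Nat.card_congr (Subgroup.subgroupOfEquivOfLe hA).toEquiv, cA, card_S0, hp]
  have cB' : Nat.card (B.subgroupOf S0) = p ^ (Nat.card S0).factorization p := by
    rw [Nat.card_congr (Subgroup.subgroupOfEquivOfLe hB).toEquiv, cB, card_S0, hp]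
  obtain ⟨g, hg⟩ := exists_smul_eq S0 (Sylow.ofCard (A.subgroupOf S0) cA') (Sylow.ofCard (B.subgroupOf S0) cB')
  refine ⟨g.1, g.2, ?_⟩
  have h2 : (A.subgroupOf S0).map (MulAut.conj g).toMonoidHom = B.subgroupOf S0 := by
    have := congrArg Sylow.toSubgroup hg
    rw [Sylow.coe_subgroup_smul] at this
    exact this
  ext x
  rw [mem_cj]
  constructor
  · intro hx
    have h3 : (⟨x, hB hx⟩ : S0) ∈ B.subgroupOf S0 := hx
    rw [← h2] at h3
    obtain ⟨y, hy, e⟩ := h3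
    have e' : g.1 * y.1 * g.1⁻¹ = x := congrArg Subtype.val e
    rw [← e']
    simpa [Subgroup.mem_subgroupOf, mul_assoc] using hy
  · intro hx
    have hx0 : x ∈ S0 := by
      have h : g.1 * (g.1⁻¹ * x * g.1) * g.1⁻¹ ∈ S0 := mul_mem (mul_mem g.2 (hA hx)) (inv_mem g.2)
      simpa [mul_assoc] using h
    have h3 : (⟨x, hx0⟩ : S0) ∈ (A.subgroupOf S0).map (MulAut.conj g).toMonoidHom :=
      ⟨⟨g.1⁻¹ * x * g.1, hA hx⟩, hx, Subtype.ext (by simp [mul_assoc])⟩
    rw [h2] at h3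
    exact h3

end Cfsg.Agent.RuRank
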