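import Cfsg.Agent.RuRank.Facts
import Cfsg.Agent.RuRank.DataConn
import Cfsg.Agent.RuRank.DataSyl
import Cfsg.Agent.RuRank.DataOrb

/-!
Connectivity of the suborbit of size 1755 under the element of order 13 and a conjugate of element
8, and the orbit of size 300 of the subgroup generated by elements 6, 8, 9.
-/

set_option autoImplicit false
set_option maxRecDepth 100000

namespace Cfsg.Agent.RuRank.Conn

open Cfsg.Agent.CosetCert MulAction

/-- The code of a point of class 1: cycle and position. -/
noncomputable def cT (i : ℕ) : ℕ := Dat.cycT.get 16 i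

/-- The cycle of a point. -/
noncomputable def cyc (i : ℕ) : ℕ := Nat.div (Nat.sub (cT i) 1) 16

/-- The position of a point in its cycle. -/
noncomputable def off (i : ℕ) : ℕ := Nat.mod (Nat.sub (cT i) 1) 16

/-- The root of a cycle. -/
noncomputable def root (c : ℕ) : ℕ := Nat.mod (Dat.cycRoots.getD c 0) 4060

/-- The root of a cycle, as a point. -/
noncomputable def rootF (c : ℕ) : Fin 4060 := ⟨root c, Nat.mod_lt _ (by norm_num)⟩

/-- Inverses of the letters `0, ..., 5`. -/
def linv (k : ℕ) : ℕ := [0, 1, 4, 5, 2, 3].getD k 0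

/-- The word of the conjugate of element 8. -/
def uW (w : List ℕ) : List ℕ := w ++ [8] ++ w.reverse.map linv

/-- Check of a point against the cycle table. -/
noncomputable def cycOK (i : ℕ) : Bool :=
  !(Nat.beq (cls i) 1) ||
    (Nat.blt (cyc i) 135 && Nat.beq (ap (List.replicate (off i) 6) (root (cyc i))) i)

theorem cyc_table : allB (fun i => Nat.ble 4060 i || cycOK i) 12 0 = true := by decide +kernel

theorem cyc_roots : ∀ c : Fin 135, ∀ a : Fin 13,
    (Nat.beq (cls (ap (List.replicate a.val 6) (root c.val))) 1 &&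
      Nat.beq (cyc (ap (List.replicate a.val 6) (root c.val))) c.val &&
      Nat.beq (off (ap (List.replicate a.val 6) (root c.val))) a.val) = true := by
  decide +kernel

/-- The inverse of element `k`, checked on a point. -/
noncomputable def invOK (k i : ℕ) : Bool := Nat.beq (tget k (tget (linv k) i)) i

theorem inv_0 : allB (fun i => Nat.ble 4060 i || invOK 0 i) 12 0 = true := by decide +kernel

theorem inv_1 : allB (fun i => Nat.ble 4060 i || invOK 1 i) 12 0 = true := by decide +kernel

theorem inv_2 : allB (fun i => Nat.ble 4060 i || invOK 2 i) 12 0 = true := by decide +kernel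

theorem inv_3 : allB (fun i => Nat.ble 4060 i || invOK 3 i) 12 0 = true := by decide +kernel

theorem inv_4 : allB (fun i => Nat.ble 4060 i || invOK 4 i) 12 0 = true := by decide +kernel

theorem inv_5 : allB (fun i => Nat.ble 4060 i || invOK 5 i) 12 0 = true := by decide +kernel

theorem inv_table {k : ℕ} (hk : k < 6) : allB (fun i => Nat.ble 4060 i || invOK k i) 12 0 = true := by
  interval_cases k
  exacts [inv_0, inv_1, inv_2, inv_3, inv_4, inv_5]

/-- Walk through the edges, adding the cycles reached. -/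
noncomputable def walk (w : List ℕ) : List ℕ → ℕ → Bool :=
  List.rec (motive := fun _ => ℕ → Bool) (fun R => Nat.beq R (2 ^ 135 - 1))
    (fun y _ ih R => Nat.blt y 4060 && Nat.beq (cls y) 1 && R.testBit (cyc y) &&
      ih (R ||| 1 <<< cyc (ap w y)))

/-- The check of one representative. -/
noncomputable def repOK (j : ℕ) : Bool :=
  Nat.beq j 0 || ((Dat.repWords.getD j []).all (fun k => Nat.blt k 6) &&
    walk (uW (Dat.repWords.getD j [])) (Dat.edges.getD j []) 1)

theorem rep_0 : ∀ j : Fin 21, repOK j.val = true := by decide +kernel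

theorem rep_1 : ∀ j : Fin 21, repOK (j.val + 21) = true := by decide +kernel

theorem rep_2 : ∀ j : Fin 21, repOK (j.val + 42) = true := by decide +kernel

theorem rep_3 : ∀ j : Fin 21, repOK (j.val + 63) = true := by decide +kernel

theorem rep_4 : ∀ j : Fin 18, repOK (j.val + 84) = true := by decide +kernel

theorem rep_table {j : ℕ} (hj : j < 102) : repOK j = true := by
  by_cases h1 : j < 21
  · exact rep_0 ⟨j, h1⟩
  by_cases h2 : j < 42
  · simpa [Nat.sub_add_cancel (show 21 ≤ j by omega)] using rep_1 ⟨j - 21, by omega⟩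
  by_cases h3 : j < 63
  · simpa [Nat.sub_add_cancel (show 42 ≤ j by omega)] using rep_2 ⟨j - 42, by omega⟩
  by_cases h4 : j < 84
  · simpa [Nat.sub_add_cancel (show 63 ≤ j by omega)] using rep_3 ⟨j - 63, by omega⟩
  simpa [Nat.sub_add_cancel (show 84 ≤ j by omega)] using rep_4 ⟨j - 84, by omega⟩

theorem rep_len : Dat.repWords.length = 102 := by decide +kernel

theorem el_linv {k : ℕ} (hk : k < 6) : el k * el (linv k) = 1 := by
  have hl : ∀ k : Fin 6, linv k.val < 14 := by decide
  refine Equiv.Perm.ext fun i => Fin.ext ?_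
  rw [Equiv.Perm.mul_apply, el_apply (by omega), el_apply (hl ⟨k, hk⟩)]
  exact Nat.eq_of_beq_eq_true (SporOut.Ru.of_allB (inv_table hk) i.val i.2)

theorem wEl_linv : ∀ w : List ℕ, (∀ k ∈ w, k < 6) → wEl (w.reverse.map linv) = (wEl w)⁻¹
  | [], _ => by simp [wEl]
  | k :: w, h => by
    have h1 := wEl_linv w fun x hx => h x (List.mem_cons_of_mem _ hx)
    have h2 : el (linv k) = (el k)⁻¹ := (inv_eq_of_mul_eq_one_right (el_linv (h k List.mem_cons_self))).symm
    simp only [wEl, List.reverse_cons, List.map_append, List.prod_append, List.map_cons,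
      List.map_nil, List.prod_cons, List.prod_nil, mul_one, mul_inv_rev] at h1 ⊢
    rw [h1, h2]

theorem uW_lt {w : List ℕ} (hw : ∀ k ∈ w, k < 6) : ∀ k ∈ uW w, k < 14 := by
  have hl : ∀ k : Fin 6, linv k.val < 14 := by decide
  intro k hk
  simp only [uW, List.mem_append, List.mem_singleton, List.mem_map, List.mem_reverse] at hk
  rcases hk with (hk | rfl) | ⟨a, ha, rfl⟩
  · exact (hw k hk).trans (by norm_num)
  · norm_num
  · exact hl ⟨a, hw a ha⟩

theorem wEl_uW {w : List ℕ} (hw : ∀ k ∈ w, k < 6) :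
    wEl (uW w) = wEl w * el 8 * (wEl w)⁻¹ := by
  rw [← wEl_linv w hw]
  simp [wEl, uW, mul_assoc]

theorem cyc_spec {i : Fin 4060} (hi : cls i.val = 1) :
    cyc i.val < 135 ∧ wEl (List.replicate (off i.val) 6) (rootF (cyc i.val)) = i := by
  have h := SporOut.Ru.of_allB cyc_table i.val i.2
  simp only [cycOK, Bool.or_eq_true, Bool.and_eq_true, Bool.not_eq_true'] at h
  rcases h with h | ⟨h1, h2⟩
  · rw [hi] at h
    exact absurd h (by simp)
  · refine ⟨Nat.le_of_ble_eq_true h1, Fin.ext ?_⟩
    rw [wEl_apply _ fun k hk => by rw [(List.mem_replicate.1 hk).2]; norm_num]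
    exact Nat.eq_of_beq_eq_true h2

theorem ncard_cls_one : {i : Fin 4060 | cls i.val = 1}.ncard = 1755 := by
  have hw : ∀ a : ℕ, ∀ k ∈ List.replicate a 6, k < 14 := fun a k hk => by
    rw [(List.mem_replicate.1 hk).2]; norm_num
  let f : Fin 135 × Fin 13 → Fin 4060 := fun p => wEl (List.replicate p.2.val 6) (rootF p.1.val)
  have hf : ∀ p, cls (f p).val = 1 ∧ cyc (f p).val = p.1.val ∧ off (f p).val = p.2.val := by
    intro p
    have h := cyc_roots p.1 p.2
    simp only [Bool.and_eq_true] at h
    rw [wEl_apply _ (hw _)]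
    exact ⟨Nat.eq_of_beq_eq_true h.1.1, Nat.eq_of_beq_eq_true h.1.2, Nat.eq_of_beq_eq_true h.2⟩
  have hinj : Function.Injective f := fun p q e => by
    have hp := hf p
    have hq := hf q
    rw [e] at hp
    exact Prod.ext (Fin.ext (hp.2.1.symm.trans hq.2.1)) (Fin.ext (hp.2.2.symm.trans hq.2.2))
  have hoff : ∀ i : Fin 4060, cls i.val = 1 → off i.val < 13 := by
    intro i hi
    obtain ⟨hc, he⟩ := cyc_spec hi
    by_contra hlt
    have h16 : off i.val < 16 := Nat.mod_lt _ (by norm_num)
    have key : ∀ c : Fin 135, ∀ a : Fin 16, (Nat.blt a.val 13 ||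
        !(Nat.beq (off (ap (List.replicate a.val 6) (root c.val))) a.val)) = true := by
      decide +kernel
    have h := key ⟨_, hc⟩ ⟨_, h16⟩
    have he' := congrArg Fin.val he
    rw [wEl_apply _ (hw _)] at he'
    simp only [Bool.or_eq_true, Bool.not_eq_true'] at h
    rcases h with h | h
    · exact hlt (Nat.le_of_ble_eq_true h)
    · exact Nat.ne_of_beq_eq_false h (congrArg off he')
  have hrange : {i : Fin 4060 | cls i.val = 1} = Set.range f := by
    refine Set.Subset.antisymm (fun i hi => ?_) (fun i ⟨p, hp⟩ => hp ▸ (hf p).1)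
    obtain ⟨hc, he⟩ := cyc_spec hi
    exact ⟨(⟨_, hc⟩, ⟨_, hoff i hi⟩), he⟩
  rw [hrange, Set.ncard_range_of_injective hinj]
  simp

/-- The walk reaches every cycle. -/
theorem walk_spec {w : List ℕ} (hw : ∀ k ∈ w, k < 14) {P : Fin 4060 → Prop}
    (hu : ∀ y, P y → P (wEl w y))
    (hc : ∀ y : Fin 4060, cls y.val = 1 → (P y ↔ P (rootF (cyc y.val))))
    (hcls : ∀ y : Fin 4060, cls y.val = 1 → cls (wEl w y : ℕ) = 1) :
    ∀ (l : List ℕ) (R : ℕ), (∀ c, R.testBit c = true → P (rootF c)) → walk w l R = true →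
      ∀ c < 135, P (rootF c)
  | [], R, hR, h, c, hc' => hR c (by
      rw [Nat.eq_of_beq_eq_true h, Nat.testBit_two_pow_sub_one]
      simpa using hc')
  | y :: l, R, hR, h, c, hc' => by
    change (Nat.blt y 4060 && Nat.beq (cls y) 1 && R.testBit (cyc y) &&
      walk w l (R ||| 1 <<< cyc (ap w y))) = true at h
    simp only [Bool.and_eq_true] at h
    obtain ⟨⟨⟨h1, h2⟩, h3⟩, h4⟩ := h
    refine walk_spec hw hu hc hcls l _ (fun d hd => ?_) h4 c hc'
    let yF : Fin 4060 := ⟨y, Nat.le_of_ble_eq_true h1⟩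
    have hy1 : cls yF.val = 1 := Nat.eq_of_beq_eq_true h2
    have hz : P (rootF (cyc (wEl w yF : ℕ))) :=
      (hc _ (hcls _ hy1)).1 (hu _ ((hc yF hy1).2 (hR _ h3)))
    rw [Nat.testBit_or, Bool.or_eq_true, Nat.one_shiftLeft, Nat.testBit_two_pow,
      decide_eq_true_eq] at hd
    rcases hd with hd | hd
    · exact hR d hd
    · rw [← hd]
      rwa [wEl_apply w hw] at hz

theorem root_zero : rootF 0 = qPt := by
  apply Fin.ext
  show root 0 = 2305
  decide +kernel

theorem qPt_cls : cls qPt.val = 1 := by decide +kernel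

/-- The group generated by element 6 and the conjugate of element 8 is transitive on the class 1. -/
theorem orbit_closure {j : ℕ} (hj0 : 0 < j) (hj : j < Dat.repWords.length) :
    (orbit (Subgroup.closure ({el 6, wEl (Dat.repWords.getD j []) * el 8 *
        (wEl (Dat.repWords.getD j []))⁻¹} : Set (Equiv.Perm (Fin 4060)))) qPt)
      = {i : Fin 4060 | cls i.val = 1} := by
  rw [rep_len] at hj
  set w := Dat.repWords.getD j [] with hwdef
  have hchk := rep_table hj
  simp only [repOK, Bool.or_eq_true, Bool.and_eq_true, ← hwdef, List.all_eq_true] at hchk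
  rcases hchk with hchk | ⟨hw, hwalk⟩
  · exact absurd (Nat.eq_of_beq_eq_true hchk) (by omega)
  replace hw : ∀ k ∈ w, k < 6 := fun k hk => Nat.le_of_ble_eq_true (hw k hk)
  rw [← wEl_uW hw]
  set H := Subgroup.closure ({el 6, wEl (uW w)} : Set (Equiv.Perm (Fin 4060))) with hH
  have hHle : H ≤ S0 := (Subgroup.closure_le _).2 (by
    rintro g (rfl | rfl)
    · exact el_mem (by norm_num)
    · exact wEl_mem (uW_lt hw))
  have h6 : el 6 ∈ H := Subgroup.subset_closure (Or.inl rfl)
  have hu : wEl (uW w) ∈ H := Subgroup.subset_closure (Or.inr rfl)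
  have hmov : ∀ g ∈ H, ∀ y, y ∈ orbit H qPt ↔ g y ∈ orbit H qPt := by
    intro g hg y
    constructor
    · rintro ⟨m, rfl⟩
      exact ⟨⟨g, hg⟩ * m, mul_smul _ _ _⟩
    · rintro ⟨m, hm⟩
      refine ⟨⟨g, hg⟩⁻¹ * m, ?_⟩
      show (⟨g, hg⟩⁻¹ * m : H) • qPt = y
      rw [mul_smul, show m • qPt = g y from hm]
      exact g.symm_apply_apply y
  have hrep : ∀ a : ℕ, wEl (List.replicate a 6) ∈ H := fun a => list_prod_mem fun p hp => by
    obtain ⟨k, hk, rfl⟩ := List.mem_map.1 hp
    rw [(List.mem_replicate.1 hk).2]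
    exact h6
  have hc : ∀ y : Fin 4060, cls y.val = 1 →
      (y ∈ orbit H qPt ↔ rootF (cyc y.val) ∈ orbit H qPt) := by
    intro y hy
    conv_lhs => rw [← (cyc_spec hy).2]
    exact (hmov _ (hrep _) _).symm
  have hall := walk_spec (P := fun y => y ∈ orbit H qPt) (uW_lt hw)
    (fun y hy => (hmov _ hu y).1 hy) hc
    (fun y hy => (cls_smul (wEl_mem (uW_lt hw)) y).trans hy) (Dat.edges.getD j []) 1 (fun c hc1 => by
      rw [← pow_zero 2, Nat.testBit_two_pow, decide_eq_true_eq] at hc1
      rw [← hc1, root_zero]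
      exact mem_orbit_self _) hwalk
  refine Set.Subset.antisymm ?_ fun i hi => (hc i hi).2 (hall _ (cyc_spec hi).1)
  rintro i ⟨m, rfl⟩
  exact (cls_smul (hHle m.2) qPt).trans qPt_cls

theorem dvd_card {j : ℕ} (hj0 : 0 < j) (hj : j < Dat.repWords.length)
    {M : Subgroup (Equiv.Perm (Fin 4060))} (h6 : el 6 ∈ M)
    (hu : wEl (Dat.repWords.getD j []) * el 8 * (wEl (Dat.repWords.getD j []))⁻¹ ∈ M) :
    1755 ∣ Nat.card M := by
  set H := Subgroup.closure ({el 6, wEl (Dat.repWords.getD j []) * el 8 *
      (wEl (Dat.repWords.getD j []))⁻¹} : Set (Equiv.Perm (Fin 4060))) with hH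
  have hle : H ≤ M := (Subgroup.closure_le _).2 (by
    rintro g (rfl | rfl)
    · exact h6
    · exact hu)
  refine dvd_trans ?_ (Subgroup.card_dvd_of_le hle)
  rw [← Subgroup.index_mul_card (stabilizer H qPt), index_stabilizer, hH, orbit_closure hj0 hj,
    ncard_cls_one]
  exact dvd_mul_right _ _

/-- The orbit-300 set. -/
noncomputable def inO (i : ℕ) : Bool := Nat.beq (Dat.kClsT.get 4 i) 4

/-- A point is where the orbit list says. -/
noncomputable def posOK (i : ℕ) : Bool :=
  Nat.blt (Dat.orb300.getD i 0) 4060 && inO (Dat.orb300.getD i 0) &&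
    Nat.beq (ap (dec [6, 8, 9] 9 (Dat.orb300Words.getD i 0)) (Dat.orb300.getD 0 0)) (Dat.orb300.getD i 0) &&
    (dec [6, 8, 9] 9 (Dat.orb300Words.getD i 0)).all (fun k => Nat.beq k 6 || Nat.beq k 8 || Nat.beq k 9)

theorem pos_table : ∀ i : Fin 300, posOK i.val = true := by decide +kernel

theorem inO_count : (List.range 4060).countP inO = 300 := by decide +kernel

theorem orb_nodup : (List.range 300).all (fun i => (List.range i).all
    (fun j => !(Nat.beq (Dat.orb300.getD i 0) (Dat.orb300.getD j 0)))) = true := by decide +kernel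

/-- Element `k` preserves the orbit of size 300. -/
noncomputable def closedOK (k i : ℕ) : Bool := !(inO i) || inO (tget k i)

theorem closed_6 : allB (fun i => Nat.ble 4060 i || closedOK 6 i) 12 0 = true := by decide +kernel

theorem closed_8 : allB (fun i => Nat.ble 4060 i || closedOK 8 i) 12 0 = true := by decide +kernel

theorem closed_9 : allB (fun i => Nat.ble 4060 i || closedOK 9 i) 12 0 = true := by decide +kernel

/-- A point fixed by the elements 6, 8, 9 in class 2 is the root. -/
noncomputable def fixOK (i : ℕ) : Bool :=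
  !(Nat.beq (cls i) 2) || !(Nat.beq (tget 6 i) i) || !(Nat.beq (tget 8 i) i) ||
    !(Nat.beq (tget 9 i) i) || Nat.beq i 1

theorem fix_table : allB (fun i => Nat.ble 4060 i || fixOK i) 12 0 = true := by decide +kernel

/-- Element 6 has thirteenth power one, checked on a point. -/
noncomputable def thirteenOK (i : ℕ) : Bool := Nat.beq (ap (List.replicate 13 6) i) i

theorem thirteen_0 : allB (fun i => Nat.ble 4060 i || thirteenOK i) 11 0 = true := by decide +kernel

theorem thirteen_1 : allB (fun i => Nat.ble 4060 i || thirteenOK i) 11 2048 = true := by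
  decide +kernel

theorem six_ne : Nat.beq (tget 6 2305) 2305 = false := by decide +kernel

end Cfsg.Agent.RuRank.Conn

namespace Cfsg.Agent.RuRank

open Cfsg.Agent.CosetCert MulAction

theorem orderOf_el_six : orderOf (el 6) = 13 := by
  haveI : Fact (Nat.Prime 13) := ⟨by norm_num⟩
  refine orderOf_eq_prime ?_ fun h => ?_
  · refine Equiv.Perm.ext fun i => Fin.ext ?_
    have h1 : el 6 ^ 13 = wEl (List.replicate 13 6) := by
      rw [wEl, List.map_replicate, List.prod_replicate]
    rw [h1, wEl_apply _ fun k hk => by rw [(List.mem_replicate.1 hk).2]; norm_num]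
    have key : Conn.thirteenOK i.val = true := by
      have hi := i.2
      by_cases h' : i.val < 2048
      · have := allB_spec Conn.thirteen_0 i.val (Nat.zero_le _) (by omega)
        simpa [show ¬ 4060 ≤ i.val by omega] using this
      · have := allB_spec Conn.thirteen_1 i.val (by omega) (by omega)
        simpa [show ¬ 4060 ≤ i.val by omega] using this
    exact Nat.eq_of_beq_eq_true key
  · have e := el_apply (show 6 < 14 by norm_num) qPt
    rw [h] at e
    exact Nat.ne_of_beq_eq_false Conn.six_ne e.symm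

theorem conn_rep (j : ℕ) (hj0 : 0 < j) (hj : j < Dat.repWords.length)
    (M : Subgroup (Equiv.Perm (Fin 4060))) (_hM : M ≤ S0) (hx : el 6 ∈ M)
    (hu : wEl (Dat.repWords.getD j []) * el 8 * (wEl (Dat.repWords.getD j []))⁻¹ ∈ M) :
    1755 ∣ Nat.card M :=
  Conn.dvd_card hj0 hj hx hu

theorem good_fix (i : Fin 4060) (h : cls i.val = 2) (h6 : el 6 i = i) (h8 : el 8 i = i)
    (h9 : el 9 i = i) : i = rPt := by
  have hf := SporOut.Ru.of_allB Conn.fix_table i.val i.2
  have e : ∀ k, k < 14 → el k i = i → tget k i.val = i.val := fun k hk he => by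
    rw [← el_apply hk, he]
  simp only [Conn.fixOK, h, e 6 (by norm_num) h6, e 8 (by norm_num) h8, e 9 (by norm_num) h9,
    Bool.or_eq_true, Bool.not_eq_true'] at hf
  rcases hf with (((hf | hf) | hf) | hf) | hf
  all_goals first
    | exact Fin.ext (Nat.eq_of_beq_eq_true hf)
    | exact absurd (Nat.ne_of_beq_eq_false hf rfl) (fun h => h)

theorem good_dvd :
    3900 ∣ Nat.card ↥(Subgroup.closure ({el 6, el 8, el 9} : Set (Equiv.Perm (Fin 4060)))) := by
  set H := Subgroup.closure ({el 6, el 8, el 9} : Set (Equiv.Perm (Fin 4060))) with hH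
  set O : Set (Fin 4060) := {i | Conn.inO i.val = true} with hO
  have hmem : ∀ k, k = 6 ∨ k = 8 ∨ k = 9 → el k ∈ H := by
    rintro k (rfl | rfl | rfl) <;> exact Subgroup.subset_closure (by simp)
  -- the group stabilises the set
  have hgen : ∀ k, k = 6 ∨ k = 8 ∨ k = 9 → el k '' O = O := by
    intro k hk
    have hk14 : k < 14 := by omega
    refine Set.eq_of_subset_of_ncard_le ?_ (le_of_eq (Set.ncard_image_of_injective _ (el k).injective).symm)
    rintro _ ⟨i, hi, rfl⟩
    have hc : Conn.closedOK k i.val = true := by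
      rcases hk with rfl | rfl | rfl
      · exact SporOut.Ru.of_allB Conn.closed_6 i.val i.2
      · exact SporOut.Ru.of_allB Conn.closed_8 i.val i.2
      · exact SporOut.Ru.of_allB Conn.closed_9 i.val i.2
    simp only [hO, Set.mem_ofPred_eq] at hi ⊢
    rw [el_apply hk14]
    simpa [Conn.closedOK, hi] using hc
  have hstab : ∀ g ∈ H, g '' O = O := by
    intro g hg
    induction hg using Subgroup.closure_induction with
    | mem x hx =>
      rcases hx with rfl | rfl | rfl
      exacts [hgen 6 (.inl rfl), hgen 8 (.inr (.inl rfl)), hgen 9 (.inr (.inr rfl))]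
    | one => simp
    | mul x y _ _ hx hy => rw [Equiv.Perm.coe_mul, Set.image_comp, hy, hx]
    | inv x _ hx =>
      nth_rewrite 1 [← hx]
      rw [← Set.image_comp]
      simp
  -- the orbit
  have hpos : ∀ t : Fin 300, Dat.orb300.getD t.val 0 < 4060 := fun t => by
    have h := Conn.pos_table t
    simp only [Conn.posOK, Bool.and_eq_true] at h
    exact Nat.le_of_ble_eq_true h.1.1.1
  let f : Fin 300 → Fin 4060 := fun t => ⟨_, hpos t⟩
  have hinj : Function.Injective f := by
    intro s t e
    have e' : Dat.orb300.getD s.val 0 = Dat.orb300.getD t.val 0 := congrArg Fin.val e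
    have hn := Conn.orb_nodup
    simp only [List.all_eq_true, List.mem_range, Bool.not_eq_true'] at hn
    rcases lt_trichotomy s.val t.val with h | h | h
    · exact absurd e'.symm (Nat.ne_of_beq_eq_false (hn _ t.2 _ h))
    · exact Fin.ext h
    · exact absurd e' (Nat.ne_of_beq_eq_false (hn _ s.2 _ h))
  have hfO : ∀ t, f t ∈ O := fun t => by
    have h := Conn.pos_table t
    simp only [Conn.posOK, Bool.and_eq_true] at h
    exact h.1.1.2
  have hOcard : O.ncard = 300 := by rw [hO, ← countP_eq_ncard, Conn.inO_count]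
  have hf0 : ∀ t, f t ∈ orbit H (f 0) := fun t => by
    have h := Conn.pos_table t
    simp only [Conn.posOK, Bool.and_eq_true, List.all_eq_true, Bool.or_eq_true] at h
    have hlet : ∀ k ∈ dec [6, 8, 9] 9 (Dat.orb300Words.getD t.val 0), k = 6 ∨ k = 8 ∨ k = 9 :=
      fun k hk => by
        rcases h.2 k hk with (e | e) | e
        exacts [.inl (Nat.eq_of_beq_eq_true e), .inr (.inl (Nat.eq_of_beq_eq_true e)),
          .inr (.inr (Nat.eq_of_beq_eq_true e))]
    refine ⟨⟨wEl (dec [6, 8, 9] 9 (Dat.orb300Words.getD t.val 0)), list_prod_mem fun p hp => ?_⟩, Fin.ext ?_⟩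
    · obtain ⟨k, hk, rfl⟩ := List.mem_map.1 hp
      exact hmem k (hlet k hk)
    · show ((wEl _) (f 0) : ℕ) = _
      rw [wEl_apply _ fun k hk => by rcases hlet k hk with rfl | rfl | rfl <;> norm_num]
      exact Nat.eq_of_beq_eq_true h.1.2
  have horb : orbit H (f 0) = O := by
    refine Set.Subset.antisymm ?_ ?_
    · rintro _ ⟨⟨g, hg⟩, rfl⟩
      exact (hstab g hg).subset ⟨f 0, hfO 0, rfl⟩
    · have : Set.range f = O := Set.eq_of_subset_of_ncard_le (Set.range_subset_iff.2 hfO)
        (by rw [hOcard, Set.ncard_range_of_injective hinj]; simp)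
      rw [← this]
      exact Set.range_subset_iff.2 hf0
  have h300 : 300 ∣ Nat.card H := by
    rw [← Subgroup.index_mul_card (stabilizer H (f 0)), index_stabilizer, horb, hOcard]
    exact dvd_mul_right _ _
  have h13 : 13 ∣ Nat.card H := by
    have := orderOf_dvd_natCard (⟨el 6, hmem 6 (.inl rfl)⟩ : H)
    rwa [Subgroup.orderOf_mk, orderOf_el_six] at this
  exact Nat.Coprime.mul_dvd_of_dvd_of_dvd (by norm_num : Nat.Coprime 300 13) h300 h13

end Cfsg.Agent.RuRank
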