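import Cfsg.Agent.SporOut.RuFrame
import Cfsg.Agent.RuModel.RuSimple
import Cfsg.Agent.RuRank.DataElt
import Cfsg.Agent.RuRank.DataOrb

/-!
The point stabilizer of the Rudvalis group on 4060 points, its two suborbit classes and the orbital
graph of valency 1755: basic vocabulary for the recognition of rank three groups.
-/

set_option autoImplicit false
set_option maxRecDepth 100000

namespace Cfsg.Agent.RuRank

open Cfsg.Agent.CosetCert MulAction

/-- The group on 4060 points. -/
noncomputable abbrev RK : Subgroup (Equiv.Perm (Fin 4060)) := SporOut.Ru.K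

/-- The stabilizer of the point 0. -/
noncomputable def S0 : Subgroup (Equiv.Perm (Fin 4060)) :=
  RK ⊓ stabilizer (Equiv.Perm (Fin 4060)) (0 : Fin 4060)

/-- Action of an element of the tables. -/
noncomputable def tget (k i : ℕ) : ℕ := (Dat.tabs.getD k (PTree.leaf 0)).get 16 i

/-- Action of a word in the elements, first element applied last. -/
noncomputable def ap (w : List ℕ) (i : ℕ) : ℕ := w.foldr tget i

/-- The element of a table. -/
noncomputable def el (k : ℕ) : Equiv.Perm (Fin 4060) := ((Dat.eltWord.getD k []).map SporOut.Ru.sig).prod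

/-- The product of a word in the elements. -/
noncomputable def wEl (w : List ℕ) : Equiv.Perm (Fin 4060) := (w.map el).prod

/-- Decoding of a word: base `8`, a digit `d + 1` stands for entry `d` of the list. -/
noncomputable def dec (L : List ℕ) : ℕ → ℕ → List ℕ :=
  fun fuel => Nat.rec (motive := fun _ => ℕ → List ℕ) (fun _ => [])
    (fun _ ih c => bif Nat.beq c 0 then [] else L.getD (Nat.sub (c % 8) 1) 0 :: ih (c / 8)) fuel

/-- The class of a point: `0` for the point 0, `1` and `2` for the suborbits of sizes 1755 and 2304. -/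
noncomputable def cls (i : ℕ) : ℕ := Dat.clsT.get 4 i

/-- The root of the class `1`. -/
def qPt : Fin 4060 := ⟨2305, by norm_num⟩

/-- The root of the class `2`. -/
def rPt : Fin 4060 := ⟨1, by norm_num⟩

/-- Stabilizer in `S0` of the root of the class `1`. -/
noncomputable def Hq : Subgroup (Equiv.Perm (Fin 4060)) := S0 ⊓ stabilizer (Equiv.Perm (Fin 4060)) qPt

/-- Stabilizer in `S0` of the root of the class `2`. -/
noncomputable def Kr : Subgroup (Equiv.Perm (Fin 4060)) := S0 ⊓ stabilizer (Equiv.Perm (Fin 4060)) rPt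

/-- The orbital graph of valency 1755. -/
def Adj (i j : Fin 4060) : Prop := ∃ g ∈ RK, g i = 0 ∧ cls (g j : ℕ) = 1

/-- The automorphisms of the graph. -/
def autG : Subgroup (Equiv.Perm (Fin 4060)) where
  carrier := {g | ∀ i j, Adj (g i) (g j) ↔ Adj i j}
  one_mem' _ _ := Iff.rfl
  mul_mem' ha hb i j := (ha _ _).trans (hb i j)
  inv_mem' {g} hg i j := by
    rw [← hg]
    simp [Equiv.Perm.inv_def]

/-- One entry of the check of the tables. -/
noncomputable def eltOK (k i : ℕ) : Bool :=
  Nat.beq ((Dat.eltWord.getD k []).foldr SporOut.Ru.look i) (tget k i) && Nat.blt (tget k i) 4060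

theorem word_letters : ∀ k : Fin 14, ∀ l ∈ Dat.eltWord.getD k.val [], 1 ≤ l ∧ l ≤ 7 := by decide +kernel

/-- The check of one half of one table. -/
noncomputable def eltHalf (k lo : ℕ) : Bool := allB (fun i => Nat.ble 4060 i || eltOK k i) 11 lo

theorem elt_half_0_0 : eltHalf 0 0 = true := by decide +kernel

theorem elt_half_0_1 : eltHalf 0 2048 = true := by decide +kernel

theorem elt_half_1_0 : eltHalf 1 0 = true := by decide +kernel

theorem elt_half_1_1 : eltHalf 1 2048 = true := by decide +kernel

theorem elt_half_2_0 : eltHalf 2 0 = true := by decide +kernel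

theorem elt_half_2_1 : eltHalf 2 2048 = true := by decide +kernel

theorem elt_half_3_0 : eltHalf 3 0 = true := by decide +kernel

theorem elt_half_3_1 : eltHalf 3 2048 = true := by decide +kernel

theorem elt_half_4_0 : eltHalf 4 0 = true := by decide +kernel

theorem elt_half_4_1 : eltHalf 4 2048 = true := by decide +kernel

theorem elt_half_5_0 : eltHalf 5 0 = true := by decide +kernel

theorem elt_half_5_1 : eltHalf 5 2048 = true := by decide +kernel

theorem elt_half_6_0 : eltHalf 6 0 = true := by decide +kernel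

theorem elt_half_6_1 : eltHalf 6 2048 = true := by decide +kernel

theorem elt_half_7_0 : eltHalf 7 0 = true := by decide +kernel

theorem elt_half_7_1 : eltHalf 7 2048 = true := by decide +kernel

theorem elt_half_8_0 : eltHalf 8 0 = true := by decide +kernel

theorem elt_half_8_1 : eltHalf 8 2048 = true := by decide +kernel

theorem elt_half_9_0 : eltHalf 9 0 = true := by decide +kernel

theorem elt_half_9_1 : eltHalf 9 2048 = true := by decide +kernel

theorem elt_half_10_0 : eltHalf 10 0 = true := by decide +kernel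

theorem elt_half_10_1 : eltHalf 10 2048 = true := by decide +kernel

theorem elt_half_11_0 : eltHalf 11 0 = true := by decide +kernel

theorem elt_half_11_1 : eltHalf 11 2048 = true := by decide +kernel

theorem elt_half_12_0 : eltHalf 12 0 = true := by decide +kernel

theorem elt_half_12_1 : eltHalf 12 2048 = true := by decide +kernel

theorem elt_half_13_0 : eltHalf 13 0 = true := by decide +kernel

theorem elt_half_13_1 : eltHalf 13 2048 = true := by decide +kernel

theorem elt_table {k : ℕ} (hk : k < 14) (i : Fin 4060) : eltOK k i.val = true := by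
  have key : eltHalf k 0 = true ∧ eltHalf k 2048 = true := by
    interval_cases k
    · exact ⟨elt_half_0_0, elt_half_0_1⟩
    · exact ⟨elt_half_1_0, elt_half_1_1⟩
    · exact ⟨elt_half_2_0, elt_half_2_1⟩
    · exact ⟨elt_half_3_0, elt_half_3_1⟩
    · exact ⟨elt_half_4_0, elt_half_4_1⟩
    · exact ⟨elt_half_5_0, elt_half_5_1⟩
    · exact ⟨elt_half_6_0, elt_half_6_1⟩
    · exact ⟨elt_half_7_0, elt_half_7_1⟩
    · exact ⟨elt_half_8_0, elt_half_8_1⟩
    · exact ⟨elt_half_9_0, elt_half_9_1⟩
    · exact ⟨elt_half_10_0, elt_half_10_1⟩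
    · exact ⟨elt_half_11_0, elt_half_11_1⟩
    · exact ⟨elt_half_12_0, elt_half_12_1⟩
    · exact ⟨elt_half_13_0, elt_half_13_1⟩
  obtain ⟨h0, h1⟩ := key
  have h : (Nat.ble 4060 i.val || eltOK k i.val) = true := by
    rcases Nat.lt_or_ge i.val 2048 with c | c
    · exact allB_spec h0 i.val (Nat.zero_le _) (by norm_num; omega)
    · exact allB_spec h1 i.val c (by norm_num; omega)
  rw [Bool.or_eq_true] at h
  exact h.resolve_left fun e => absurd (Nat.le_of_ble_eq_true e) (not_le.2 i.2)

theorem sigW_apply : ∀ w : List ℕ, (∀ l ∈ w, 1 ≤ l ∧ l ≤ 7) → ∀ i : Fin 4060,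
    (((w.map SporOut.Ru.sig).prod) i : ℕ) = w.foldr SporOut.Ru.look i.val
  | [], _, _ => rfl
  | l :: w, h, i => by
    have hl := h l List.mem_cons_self
    rw [List.map_cons, List.prod_cons, Equiv.Perm.mul_apply, SporOut.Ru.sig_apply hl.1 hl.2,
      List.foldr_cons, sigW_apply w (fun x hx => h x (List.mem_cons_of_mem _ hx)) i]

theorem el_apply {k : ℕ} (hk : k < 14) (i : Fin 4060) : (el k i : ℕ) = tget k i.val := by
  have h := elt_table hk i
  rw [eltOK, Bool.and_eq_true] at h
  rw [el, sigW_apply _ (word_letters ⟨k, hk⟩), Nat.eq_of_beq_eq_true h.1]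

theorem wEl_apply : ∀ w : List ℕ, (∀ k ∈ w, k < 14) → ∀ i : Fin 4060, (wEl w i : ℕ) = ap w i.val
  | [], _, _ => rfl
  | k :: w, h, i => by
    have e : wEl (k :: w) = el k * wEl w := by simp [wEl]
    rw [e, Equiv.Perm.mul_apply, el_apply (h k List.mem_cons_self),
      wEl_apply w (fun x hx => h x (List.mem_cons_of_mem _ hx)) i]
    rfl

theorem el_mem_RK (k : ℕ) : el k ∈ RK :=
  list_prod_mem fun p hp => by
    obtain ⟨l, -, rfl⟩ := List.mem_map.1 hp
    exact SporOut.Ru.sig_mem l

theorem elt_fix : ∀ k : Fin 14, Nat.beq (tget k.val 0) 0 = true := by decide +kernel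

theorem el_zero {k : ℕ} (hk : k < 14) : el k 0 = 0 :=
  Fin.ext ((el_apply hk 0).trans (Nat.eq_of_beq_eq_true (elt_fix ⟨k, hk⟩)))

theorem el_mem {k : ℕ} (hk : k < 14) : el k ∈ S0 :=
  Subgroup.mem_inf.2 ⟨el_mem_RK k, mem_stabilizer_iff.2 (el_zero hk)⟩

theorem wEl_mem {w : List ℕ} (hw : ∀ k ∈ w, k < 14) : wEl w ∈ S0 :=
  list_prod_mem fun p hp => by
    obtain ⟨k, hk, rfl⟩ := List.mem_map.1 hp
    exact el_mem (hw k hk)

theorem card_RK : Nat.card RK = 145926144000 := by
  show Nat.card SporOut.Ru.K = _
  rw [← RuModel.range_eq_K]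
  exact RuModel.card_fourRu.2.2.1

theorem RK_trans (i j : Fin 4060) : ∃ g ∈ RK, g i = j := by
  obtain ⟨g, hg⟩ := exists_smul_eq RuModel.piHom.range i j
  refine ⟨g.1, ?_, hg⟩
  show g.1 ∈ SporOut.Ru.K
  rw [← RuModel.range_eq_K]
  exact g.2

end Cfsg.Agent.RuRank
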