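import Cfsg.Agent.SuzRank.Glue
import Cfsg.Agent.RuRank.Defs

/-!
Transport of a rank three action of degree 4060 to the points of the model.
-/

set_option autoImplicit false

namespace Cfsg.Agent.RuRank

open MulAction

/-- Transport of an action to the points of a model along an isomorphism of point stabilizers. -/
theorem exists_transport_gen {Ω W : Type*} [Finite Ω] [Finite W]
    (G : Subgroup (Equiv.Perm Ω)) [IsPretransitive G Ω] (a b c : Ω) (o : W)
    (n₁ n₂ : ℕ) (hn₁ : 1 < n₁) (hn₂ : 1 < n₂) (hn : n₁ ≠ n₂) (hsum : Nat.card Ω = 1 + n₁ + n₂)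
    (hW : Nat.card W = Nat.card Ω)
    (hb : (orbit (stabilizer G a) b).ncard = n₁) (hc : (orbit (stabilizer G a) c).ncard = n₂)
    (S : Subgroup (Equiv.Perm W)) (hS : ∀ g ∈ S, g o = o) (e : stabilizer G a ≃* S)
    (cl : W → ℕ) (hcl : ∀ g ∈ S, ∀ w, cl (g w) = cl w) (hcl0 : ∀ w, cl w = 0 ↔ w = o)
    (hU1 : ∀ M ≤ S, Nat.card M * n₁ = Nat.card S →
      ∃ q, cl q = 1 ∧ M = S ⊓ stabilizer (Equiv.Perm W) q)
    (hU2 : ∀ M ≤ S, Nat.card M * n₂ = Nat.card S →
      ∃ r, cl r = 2 ∧ M = S ⊓ stabilizer (Equiv.Perm W) r) :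
    ∃ G' : Subgroup (Equiv.Perm W), Nonempty (G ≃* G') ∧ (∀ i, ∃ g ∈ G', g o = i) ∧
      G' ⊓ stabilizer (Equiv.Perm W) o = S := by
  classical
  -- images of the two point stabilisers
  have him : ∀ (x : Ω) (n : ℕ), (orbit (stabilizer G a) x).ncard = n →
      ∀ w : W, ((stabilizer (stabilizer G a) x).map e.toMonoidHom).map S.subtype =
          S ⊓ stabilizer (Equiv.Perm W) w →
        (stabilizer (stabilizer G a) x).map e.toMonoidHom = stabilizer S w := by
    intro x n _ w hw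
    refine Subgroup.map_injective S.subtype_injective (hw.trans ?_)
    ext g
    simp only [Subgroup.mem_inf, Subgroup.mem_map, mem_stabilizer_iff]
    exact ⟨fun ⟨h1, h2⟩ => ⟨⟨g, h1⟩, h2, rfl⟩, fun ⟨s, h2, h3⟩ => h3 ▸ ⟨s.2, h2⟩⟩
  have hcardM : ∀ (x : Ω) (n : ℕ), (orbit (stabilizer G a) x).ncard = n →
      Nat.card (((stabilizer (stabilizer G a) x).map e.toMonoidHom).map S.subtype) * n =
        Nat.card S := by
    intro x n hx
    rw [Subgroup.card_map_of_injective S.subtype_injective,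
      Subgroup.card_map_of_injective e.injective, ← hx, ← index_stabilizer,
      Subgroup.card_mul_index]
    exact Nat.card_congr e.toEquiv
  obtain ⟨q, hq, hqM⟩ := hU1 _ (Subgroup.map_subtype_le _) (hcardM b n₁ hb)
  obtain ⟨r, hr, hrM⟩ := hU2 _ (Subgroup.map_subtype_le _) (hcardM c n₂ hc)
  obtain ⟨fQ, hfQ, hfQi⟩ := SuzRank.exists_equivariant e (him b n₁ hb q hqM)
  obtain ⟨fR, hfR, hfRi⟩ := SuzRank.exists_equivariant e (him c n₂ hc r hrM)
  -- the three orbits
  have hab : a ∉ orbit (stabilizer G a) b := fun h => Set.disjoint_left.1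
    (SuzRank.disjoint_orbit (by rw [SuzRank.orbit_self, hb]; omega)) (mem_orbit_self a) h
  have hac : a ∉ orbit (stabilizer G a) c := fun h => Set.disjoint_left.1
    (SuzRank.disjoint_orbit (by rw [SuzRank.orbit_self, hc]; omega)) (mem_orbit_self a) h
  have hbc : Disjoint (orbit (stabilizer G a) b) (orbit (stabilizer G a) c) :=
    SuzRank.disjoint_orbit (by rw [hb, hc]; omega)
  have hcov : ∀ z, z = a ∨ z ∈ orbit (stabilizer G a) b ∨ z ∈ orbit (stabilizer G a) c := by
    intro z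
    by_contra h
    simp only [not_or] at h
    have hle := Set.ncard_le_ncard (Set.subset_univ
      (insert z (insert a (orbit (stabilizer G a) b ∪ orbit (stabilizer G a) c))))
    rw [Set.ncard_univ, Set.ncard_insert_of_notMem (by simp [h.1, h.2.1, h.2.2]),
      Set.ncard_insert_of_notMem (by simp [hab, hac]), Set.ncard_union_eq hbc, hb, hc, hsum] at hle
    omega
  let f : Ω → W := fun z =>
    if z = a then o else if z ∈ orbit (stabilizer G a) b then fQ z else fR z
  have fa : f a = o := by simp [f]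
  have fbm : ∀ m : stabilizer G a, f (m • b) = (e m).1 q := fun m => by
    have h2 : m • b ∈ orbit (stabilizer G a) b := ⟨m, rfl⟩
    have h1 : m • b ≠ a := fun h => by rw [h] at h2; exact hab h2
    simp only [f, h1, h2, if_false, if_true]
    exact hfQ m
  have fcm : ∀ m : stabilizer G a, f (m • c) = (e m).1 r := fun m => by
    have h3 : m • c ∈ orbit (stabilizer G a) c := ⟨m, rfl⟩
    have h1 : m • c ≠ a := fun h => by rw [h] at h3; exact hac h3
    have h2 : m • c ∉ orbit (stabilizer G a) b := fun h =>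
      Set.disjoint_left.1 hbc h ⟨m, rfl⟩
    simp only [f, h1, h2, if_false]
    exact hfR m
  have clb : ∀ m : stabilizer G a, cl (f (m • b)) = 1 := fun m => by
    rw [fbm, hcl _ (e m).2, hq]
  have clc : ∀ m : stabilizer G a, cl (f (m • c)) = 2 := fun m => by
    rw [fcm, hcl _ (e m).2, hr]
  have cla : cl o = 0 := (hcl0 o).2 rfl
  have finj : Function.Injective f := by
    intro x y hxy
    have hcls := congrArg cl hxy
    rcases hcov x with rfl | ⟨m, rfl⟩ | ⟨m, rfl⟩ <;> rcases hcov y with h | ⟨k, hk⟩ | ⟨k, hk⟩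
    all_goals first
      | exact h.symm
      | (subst hk; simp only [fa, cla, clb, clc] at hcls; omega)
      | (rw [h] at hcls; simp only [fa, cla, clb, clc] at hcls; omega)
      | skip
    · subst hk
      rw [fbm, fbm] at hxy
      exact hfQi m k ((hfQ m).trans (hxy.trans (hfQ k).symm))
    · subst hk
      rw [fcm, fcm] at hxy
      exact hfRi m k ((hfR m).trans (hxy.trans (hfR k).symm))
  have fbij : Function.Bijective f :=
    (Nat.bijective_iff_injective_and_card f).2 ⟨finj, hW.symm⟩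
  have fsmul : ∀ (m : stabilizer G a) (z : Ω), f (m • z) = (e m).1 (f z) := by
    intro m z
    rcases hcov z with rfl | ⟨k, rfl⟩ | ⟨k, rfl⟩
    · have h1 : m • z = z := m.2
      rw [h1, fa, hS _ (e m).2]
    · rw [← mul_smul, fbm, fbm, map_mul]
      rfl
    · rw [← mul_smul, fcm, fcm, map_mul]
      rfl
  set ψ : Ω ≃ W := Equiv.ofBijective f fbij with hψ
  set Φ : Equiv.Perm Ω →* Equiv.Perm W := ψ.permCongrHom.toMonoidHom with hΦ
  have hΦa : ∀ g x, Φ g (f x) = f (g x) := fun g x => by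
    show ψ.permCongrHom g (ψ x) = ψ (g x)
    simp [Equiv.permCongr_apply]
  have heG : ∀ h : stabilizer G a, Φ h.1.1 = (e h).1 := fun h => Equiv.ext fun w => by
    obtain ⟨x, rfl⟩ := fbij.surjective w
    rw [hΦa]
    exact fsmul h x
  refine ⟨G.map Φ, ⟨G.equivMapOfInjective Φ ψ.permCongrHom.injective⟩, fun w => ?_, ?_⟩
  · obtain ⟨x, rfl⟩ := fbij.surjective w
    obtain ⟨g, hg⟩ := exists_smul_eq G a x
    refine ⟨Φ g.1, ⟨g.1, g.2, rfl⟩, ?_⟩
    rw [← fa, hΦa]
    exact congrArg f hg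
  · ext g
    rw [Subgroup.mem_inf, mem_stabilizer_iff]
    constructor
    · rintro ⟨⟨k, hk, rfl⟩, hg⟩
      have hka : k a = a := finj (by
        rw [← hΦa, fa]
        exact hg)
      rw [heG ⟨⟨k, hk⟩, hka⟩]
      exact (e _).2
    · intro hg
      refine ⟨?_, hS g hg⟩
      set h := e.symm ⟨g, hg⟩ with hh
      refine ⟨h.1.1, h.1.2, ?_⟩
      rw [heG h, hh, e.apply_symm_apply]

/-- A rank three action of degree 4060 lives on the points of the model with stabilizer `S0`
(given the facts about the model). -/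
theorem exists_transport (hS : Nat.card S0 = 35942400)
    (hcl : ∀ g ∈ S0, ∀ i : Fin 4060, cls (g i : ℕ) = cls (i : ℕ))
    (hcl0 : ∀ i : Fin 4060, cls (i : ℕ) = 0 ↔ i = 0)
    {Ω : Type*} [Fintype Ω] [DecidableEq Ω] (hΩ : Fintype.card Ω = 4060)
    (G : Subgroup (Equiv.Perm Ω)) [IsPretransitive G Ω] (a : Ω) (e : stabilizer G a ≃* ↥S0)
    (b c : Ω) (hb : (orbit (stabilizer G a) b).ncard = 1755)
    (hc : (orbit (stabilizer G a) c).ncard = 2304)
    (hU1 : ∀ M ≤ S0, Nat.card M = 20480 →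
      ∃ q : Fin 4060, cls (q : ℕ) = 1 ∧ M = S0 ⊓ stabilizer (Equiv.Perm (Fin 4060)) q)
    (hU2 : ∀ M ≤ S0, Nat.card M = 15600 →
      ∃ r : Fin 4060, cls (r : ℕ) = 2 ∧ M = S0 ⊓ stabilizer (Equiv.Perm (Fin 4060)) r) :
    ∃ G' : Subgroup (Equiv.Perm (Fin 4060)), Nonempty (G ≃* G') ∧ (∀ i, ∃ g ∈ G', g 0 = i) ∧
      G' ⊓ stabilizer (Equiv.Perm (Fin 4060)) (0 : Fin 4060) = S0 :=
  exists_transport_gen G a b c (0 : Fin 4060) 1755 2304 (by norm_num) (by norm_num) (by norm_num)
    (by rw [Nat.card_eq_fintype_card, hΩ])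
    (by rw [Nat.card_eq_fintype_card, Nat.card_eq_fintype_card, hΩ, Fintype.card_fin])
    hb hc S0 (fun g hg => (Subgroup.mem_inf.1 hg).2) e (fun i => cls (i : ℕ)) hcl hcl0
    (fun M hM h => hU1 M hM (by omega)) (fun M hM h => hU2 M hM (by omega))

end Cfsg.Agent.RuRank
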