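import Cfsg.Agent.RuRank.Facts

/-!
A transitive group on 4060 points with point stabilizer `S0` has the same graph of valency 1755 as
the Rudvalis group.

The neighbourhood of `qPt` is a union of orbits of `⟨el 10, el 11⟩` and that of `rPt` a union of
orbits of `⟨el 12, el 13⟩`; the orbit lengths determine both.
-/

set_option autoImplicit false
set_option Elab.async false
set_option maxRecDepth 100000

open Cfsg.Agent.CosetCert MulAction

namespace Cfsg.Agent.RuRank.GraphRigid

/-- Number of `true` values on a dyadic interval. -/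
noncomputable def cntB (f : ℕ → Bool) (d : ℕ) : ℕ → ℕ :=
  Nat.rec (motive := fun _ => ℕ → ℕ) (fun lo => cond (f lo) 1 0)
    (fun k ih lo => Nat.add (ih lo) (ih (Nat.add lo (Nat.shiftLeft 1 k)))) d

theorem cntB_eq (f : ℕ → Bool) : ∀ d lo : ℕ,
    cntB f d lo = ((Finset.Ico lo (lo + 2 ^ d)).filter fun i => f i = true).card
  | 0, lo => by
    show cond (f lo) 1 0 = _
    rw [pow_zero, Nat.Ico_succ_singleton, Finset.filter_singleton]
    cases f lo <;> rfl
  | k + 1, lo => by
    show cntB f k lo + cntB f k (lo + 1 <<< k) = _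
    rw [Nat.shiftLeft_eq, one_mul, cntB_eq f k lo, cntB_eq f k (lo + 2 ^ k),
      ← Finset.card_union_of_disjoint (Finset.disjoint_filter_filter
        (Finset.Ico_disjoint_Ico_consecutive _ _ _)),
      ← Finset.filter_union, Finset.Ico_union_Ico_eq_Ico (Nat.le_add_right _ _) (Nat.le_add_right _ _)]
    congr 3
    rw [pow_succ]; omega

theorem card_eq_cntB (c : ℕ → ℕ) (k n : ℕ)
    (h : Nat.beq (cntB (fun i => Nat.blt i 4060 && Nat.beq (c i) k) 12 0) n = true) :
    (Finset.univ.filter fun j : Fin 4060 => c j = k).card = n := by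
  rw [← Nat.eq_of_beq_eq_true h, cntB_eq, ← Finset.card_map Fin.valEmbedding]
  congr 1
  ext i
  simp only [Finset.mem_map, Finset.mem_filter, Finset.mem_univ, true_and, Fin.valEmbedding_apply,
    Finset.mem_Ico, Nat.zero_le, Bool.and_eq_true]
  constructor
  · rintro ⟨a, ha, rfl⟩
    exact ⟨by have := a.2; omega, Nat.ble_eq_true_of_le a.2, by rw [ha]; exact Nat.beq_refl k⟩
  · rintro ⟨-, h1, h2⟩
    exact ⟨⟨i, Nat.le_of_ble_eq_true h1⟩, Nat.eq_of_beq_eq_true h2, rfl⟩

/-- Class of a point under `el 10`, `el 11`. -/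
noncomputable def hcl (i : ℕ) : ℕ := Dat.hClsT.get 4 i

/-- Class of a point under `el 12`, `el 13`. -/
noncomputable def kcl (i : ℕ) : ℕ := Dat.kClsT.get 4 i

/-- Check of one entry of a forest. -/
noncomputable def treeOK (L roots : List ℕ) (c : ℕ → ℕ) (wT : PTree) (i : ℕ) : Bool :=
  Nat.blt (c i) roots.length &&
    (let w := dec L 22 (wT.get 64 i)
     w.all (fun k => L.any (Nat.beq k)) && Nat.beq (ap w (roots.getD (c i) 0)) i)

theorem hTree0 : allB (fun i => Nat.ble 4060 i ||
    treeOK [10, 11] Dat.hRoots hcl Dat.hWordT i) 11 0 = true := by decide +kernel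

theorem hTree1 : allB (fun i => Nat.ble 4060 i ||
    treeOK [10, 11] Dat.hRoots hcl Dat.hWordT i) 11 2048 = true := by decide +kernel

theorem kTree0 : allB (fun i => Nat.ble 4060 i ||
    treeOK [12, 13] Dat.kRoots kcl Dat.kWordT i) 11 0 = true := by decide +kernel

theorem kTree1 : allB (fun i => Nat.ble 4060 i ||
    treeOK [12, 13] Dat.kRoots kcl Dat.kWordT i) 11 2048 = true := by decide +kernel

theorem allB_join {f : ℕ → Bool} (h0 : allB f 11 0 = true) (h1 : allB f 11 2048 = true) :
    allB f 12 0 = true :=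
  show (allB f 11 0 && allB f 11 2048) = true by rw [h0, h1]; rfl

theorem hTree : allB (fun i => Nat.ble 4060 i ||
    treeOK [10, 11] Dat.hRoots hcl Dat.hWordT i) 12 0 = true := allB_join hTree0 hTree1

theorem kTree : allB (fun i => Nat.ble 4060 i ||
    treeOK [12, 13] Dat.kRoots kcl Dat.kWordT i) 12 0 = true := allB_join kTree0 kTree1

theorem class_table : allB (fun i => Nat.ble 4060 i ||
    ((bif Nat.beq (cls i) 0 then Nat.beq i 0 else true) &&
      (bif Nat.beq (hcl i) 3 then Nat.beq i 2305 else true) &&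
      (bif Nat.beq (cls i) 2 then Nat.beq (hcl i) 1 || Nat.beq (hcl i) 2
        else !(Nat.beq (hcl i) 1 || Nat.beq (hcl i) 2)))) 12 0 = true := by decide +kernel

theorem cls_sizes : ∀ k : Fin 3, Nat.beq (cntB (fun i => Nat.blt i 4060 && Nat.beq (cls i) k.val) 12 0)
    ([1, 1755, 2304].getD k.val 0) = true := by decide +kernel

theorem h_sizes : ∀ k : Fin 8, Nat.beq (cntB (fun i => Nat.blt i 4060 && Nat.beq (hcl i) k.val) 12 0)
    (Dat.hSizes.getD k.val 0) = true := by decide +kernel

theorem k_sizes : ∀ k : Fin 9, Nat.beq (cntB (fun i => Nat.blt i 4060 && Nat.beq (kcl i) k.val) 12 0)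
    (Dat.kSizes.getD k.val 0) = true := by decide +kernel

theorem fix_table : Nat.beq (tget 10 2305) 2305 = true ∧ Nat.beq (tget 11 2305) 2305 = true ∧
    Nat.beq (tget 12 1) 1 = true ∧ Nat.beq (tget 13 1) 1 = true ∧
    Nat.beq (cls 2305) 1 = true ∧ Nat.beq (cls 1) 2 = true ∧ Nat.beq (cls 0) 0 = true ∧
    Nat.beq (hcl 2305) 3 = true ∧ Nat.beq (hcl 1) 1 = true ∧ Nat.beq (hcl 0) 0 = true := by
  decide +kernel

theorem cls_0 : cls ((0 : Fin 4060) : ℕ) = 0 := cls_roots.1

theorem hcl_r : hcl (rPt : ℕ) = 1 := Nat.eq_of_beq_eq_true fix_table.2.2.2.2.2.2.2.2.1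

/-- Every point is the image of the root of its class under an element of `S0`. -/
theorem tree_reach {L roots : List ℕ} {c : ℕ → ℕ} {wT : PTree}
    (h : allB (fun i => Nat.ble 4060 i || treeOK L roots c wT i) 12 0 = true)
    (hL : ∀ k ∈ L, k < 14) (hroots : ∀ k, roots.getD k 0 < 4060) (i : Fin 4060) :
    c i < roots.length ∧ ∃ g ∈ S0, (∀ p : Fin 4060, (∀ k ∈ L, el k p = p) → g p = p) ∧
      g ⟨roots.getD (c i) 0, hroots _⟩ = i := by
  have h1 := SporOut.Ru.of_allB h i.val i.2
  simp only [treeOK, Bool.and_eq_true, List.all_eq_true, List.any_eq_true] at h1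
  obtain ⟨hlt, hw, hap⟩ := h1
  set w := dec L 22 (wT.get 64 i.val)
  have hw' : ∀ k ∈ w, k ∈ L := fun k hk => by
    obtain ⟨l, hl, e⟩ := hw k hk
    exact Nat.eq_of_beq_eq_true e ▸ hl
  have hw14 : ∀ k ∈ w, k < 14 := fun k hk => hL k (hw' k hk)
  refine ⟨Nat.le_of_ble_eq_true hlt, wEl w, wEl_mem hw14, fun p hp => ?_, ?_⟩
  · have hsub : wEl w ∈ stabilizer (Equiv.Perm (Fin 4060)) p :=
      list_prod_mem fun x hx => by
        obtain ⟨k, hk, rfl⟩ := List.mem_map.1 hx
        exact mem_stabilizer_iff.2 (hp k (hw' k hk))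
    exact mem_stabilizer_iff.1 hsub
  · exact Fin.ext ((wEl_apply w hw14 _).trans (Nat.eq_of_beq_eq_true hap))

theorem list_roots_lt (l : List ℕ) (h : ∀ x ∈ l, x < 4060) (k : ℕ) : l.getD k 0 < 4060 := by
  by_cases hk : k < l.length
  · rw [List.getD_eq_getElem _ _ hk]; exact h _ (List.getElem_mem _)
  · rw [List.getD_eq_default _ _ (not_lt.1 hk)]; norm_num

/-- The cardinality of a set which is a union of classes. -/
theorem card_union_classes (P : Fin 4060 → Prop) [DecidablePred P] (c : ℕ → ℕ) (m : ℕ)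
    (b : Fin m → Bool) (sz : Fin m → ℕ) (hlt : ∀ j : Fin 4060, c j < m)
    (hb : ∀ j : Fin 4060, P j ↔ b ⟨c j, hlt j⟩ = true)
    (hsz : ∀ k : Fin m, (Finset.univ.filter fun j : Fin 4060 => c j = k.val).card = sz k) :
    (Finset.univ.filter P).card = ∑ k, if b k then sz k else 0 := by
  rw [Finset.card_eq_sum_card_fiberwise (f := fun j : Fin 4060 => (⟨c j, hlt j⟩ : Fin m))
    (t := Finset.univ) (fun _ _ => Finset.mem_univ _)]
  refine Finset.sum_congr rfl fun k _ => ?_
  split_ifs with hk
  · rw [← hsz k]; congr 1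
    ext j
    simp only [Finset.mem_filter, Finset.mem_univ, true_and, Fin.ext_iff]
    exact ⟨fun h => h.2, fun h => ⟨(hb j).2 (by rwa [show (⟨c j, hlt j⟩ : Fin m) = k from Fin.ext h]), h⟩⟩
  · rw [Finset.card_eq_zero, Finset.filter_eq_empty_iff]
    intro j hj he
    exact hk (he ▸ (hb j).1 (Finset.mem_filter.1 hj).2)

theorem q_options : ∀ b : Fin 8 → Bool, b 0 = true → b 3 = false →
    (∑ k : Fin 8, if b k then Dat.hSizes.getD k.val 0 else 0) = 1755 →
    (∀ k, b k = [true, false, true, false, false, true, true, true].getD k.val false) ∨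
    (∀ k, b k = [true, false, false, false, true, true, true, true].getD k.val false) := by
  decide +kernel

theorem r_options : ∀ b : Fin 9 → Bool, b 0 = false → b 1 = false → b 7 = false →
    (∑ k : Fin 9, if b k then Dat.kSizes.getD k.val 0 else 0) = 1755 →
    ∀ k, b k = [false, false, false, true, false, false, false, false, true].getD k.val false := by
  decide +kernel

/-- Neighbours of `qPt`. -/
noncomputable def patQ (j : Fin 4060) : Bool :=
  [true, false, true, false, false, true, true, true].getD (hcl j) false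

/-- Neighbours of `rPt`. -/
noncomputable def patR (j : Fin 4060) : Bool :=
  [false, false, false, true, false, false, false, false, true].getD (kcl j) false

section

variable {G' : Subgroup (Equiv.Perm (Fin 4060))}

/-- The graph of valency 1755 of `G'`. -/
def A (G' : Subgroup (Equiv.Perm (Fin 4060))) (i j : Fin 4060) : Prop :=
  ∃ g ∈ G', g i = 0 ∧ cls (g j : ℕ) = 1

theorem A_RK (i j : Fin 4060) : A RK i j ↔ Adj i j := Iff.rfl

theorem A_map {g : Equiv.Perm (Fin 4060)} (hg : g ∈ G') (i j : Fin 4060) :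
    A G' (g i) (g j) ↔ A G' i j := by
  constructor
  · rintro ⟨a, ha, h1, h2⟩
    exact ⟨a * g, mul_mem ha hg, h1, h2⟩
  · rintro ⟨a, ha, h1, h2⟩
    exact ⟨a * g⁻¹, mul_mem ha (inv_mem hg), by simpa using h1, by simpa using h2⟩

variable (htr : ∀ i, ∃ g ∈ G', g 0 = i)
  (hst : G' ⊓ stabilizer (Equiv.Perm (Fin 4060)) (0 : Fin 4060) = S0)
include htr hst

omit htr in
theorem S0_mem {g : Equiv.Perm (Fin 4060)} (hg : g ∈ S0) : g ∈ G' :=
  (Subgroup.mem_inf.1 (hst ▸ hg)).1

omit htr in
theorem A_zero (j : Fin 4060) : A G' 0 j ↔ cls (j : ℕ) = 1 := by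
  constructor
  · rintro ⟨g, hg, h1, h2⟩
    have : g ∈ S0 := hst ▸ Subgroup.mem_inf.2 ⟨hg, mem_stabilizer_iff.2 h1⟩
    rwa [cls_smul this] at h2
  · exact fun h => ⟨1, one_mem _, rfl, h⟩

theorem A_irrefl (i : Fin 4060) : ¬ A G' i i := by
  obtain ⟨g, hg, rfl⟩ := htr i
  rw [A_map hg, A_zero hst, cls_0]
  decide

omit htr hst in
theorem card_translate [DecidableRel (A G')] {g : Equiv.Perm (Fin 4060)} (hg : g ∈ G') (i : Fin 4060) :
    (Finset.univ.filter (A G' (g i))).card = (Finset.univ.filter (A G' i)).card ∧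
    (Finset.univ.filter fun j => A G' j (g i)).card = (Finset.univ.filter fun j => A G' j i).card := by
  constructor <;>
  · symm
    rw [← Finset.card_map g.toEmbedding]
    congr 1
    ext j
    simp only [Finset.mem_map_equiv, Finset.mem_filter, Finset.mem_univ, true_and]
    rw [← A_map hg]
    simp

theorem card_out [DecidableRel (A G')] (i : Fin 4060) :
    (Finset.univ.filter (A G' i)).card = 1755 := by
  obtain ⟨g, hg, rfl⟩ := htr i
  rw [(card_translate hg 0).1, ← card_eq_cntB cls 1 1755 (cls_sizes 1)]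
  congr 1
  ext j
  simp [A_zero hst]

theorem A_to_zero (j : Fin 4060) : A G' j 0 ↔ cls (j : ℕ) = 1 := by
  classical
  have hsum := Finset.sum_card_bipartiteAbove_eq_sum_card_bipartiteBelow (r := A G')
    (s := Finset.univ) (t := Finset.univ)
  have hin : (Finset.univ.filter fun i => A G' i 0).card = 1755 := by
    have h1 : ∀ i : Fin 4060, (Finset.univ.filter fun j => A G' j i).card =
        (Finset.univ.filter fun j => A G' j 0).card := fun i => by
      obtain ⟨g, hg, rfl⟩ := htr i
      exact (card_translate hg 0).2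
    simp only [Finset.bipartiteAbove, Finset.bipartiteBelow] at hsum
    rw [Finset.sum_congr rfl (fun i _ => card_out htr hst i),
      Finset.sum_congr rfl (fun i _ => h1 i), Finset.sum_const, Finset.sum_const,
      Finset.card_univ, Fintype.card_fin, smul_eq_mul, smul_eq_mul] at hsum
    omega
  have hq : ∀ j : Fin 4060, ∀ s ∈ S0, A G' (s j) 0 ↔ A G' j 0 := fun j s hs => by
    conv_lhs => rw [← S0_zero hs]
    exact A_map (S0_mem hst hs) j 0
  have hlt : ∀ k, sRoot k < 4060 := fun k => by
    unfold sRoot; cases Nat.beq k 0 <;> cases Nat.beq k 1 <;> norm_num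
  let b : Fin 3 → Bool := fun k => decide (A G' ⟨sRoot k.val, hlt _⟩ 0)
  have hb : ∀ j : Fin 4060, A G' j 0 ↔ b ⟨cls (j : ℕ), cls_lt j⟩ = true := by
    intro j
    obtain ⟨hw, he, -, -⟩ := s_spec j
    have h := hq ⟨sRoot (cls (j : ℕ)), hlt _⟩ _ (wEl_mem hw)
    rw [show wEl (sWord j.val) ⟨sRoot (cls (j : ℕ)), hlt _⟩ = j from
      Fin.ext ((wEl_apply _ hw _).trans he)] at h
    simpa [b] using h
  have hcard := card_union_classes (fun i => A G' i 0) cls 3 b
    (fun k => [1, 1755, 2304].getD k.val 0) cls_lt hb (fun k => card_eq_cntB cls _ _ (cls_sizes k))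
  rw [hin] at hcard
  have h0 : b 0 = false := by
    have : ¬ A G' (0 : Fin 4060) 0 := A_irrefl htr hst 0
    simpa [b, sRoot] using this
  have hopt : ∀ b : Fin 3 → Bool, b 0 = false →
      1755 = (∑ k, if b k then ([1, 1755, 2304] : List ℕ).getD k.val 0 else 0) →
      ∀ k, (b k = true ↔ k = 1) := by decide
  rw [hb, hopt b h0 hcard]
  simp [Fin.ext_iff]

theorem A_symm {i j : Fin 4060} (h : A G' i j) : A G' j i := by
  obtain ⟨g, hg, rfl⟩ := htr i
  have e : j = g ((g⁻¹ : Equiv.Perm (Fin 4060)) j) := by simp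
  rw [e, A_map hg, A_zero hst] at h
  rw [e, A_map hg, A_to_zero htr hst]
  exact h

theorem A_q (j : Fin 4060) : A G' qPt j ↔ patQ j = true := by
  classical
  have hroots := list_roots_lt Dat.hRoots (by decide)
  let b : Fin 8 → Bool := fun k => decide (A G' qPt ⟨Dat.hRoots.getD k.val 0, hroots _⟩)
  have hlt : ∀ j : Fin 4060, hcl j < 8 := fun j =>
    (tree_reach hTree (by decide) hroots j).1
  have hfix : ∀ k ∈ [10, 11], el k qPt = qPt := by
    intro k hk
    simp only [List.mem_cons, List.not_mem_nil, or_false] at hk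
    rcases hk with rfl | rfl
    · exact Fin.ext ((el_apply (by norm_num) _).trans (Nat.eq_of_beq_eq_true fix_table.1))
    · exact Fin.ext ((el_apply (by norm_num) _).trans (Nat.eq_of_beq_eq_true fix_table.2.1))
  have hb : ∀ j : Fin 4060, A G' qPt j ↔ b ⟨hcl j, hlt j⟩ = true := by
    intro j
    obtain ⟨-, s, hs, hsp, hsj⟩ := tree_reach hTree (by decide) hroots j
    have h := A_map (S0_mem hst hs) qPt ⟨Dat.hRoots.getD (hcl j) 0, hroots _⟩
    rw [hsp qPt hfix, hsj] at h
    simpa [b] using h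
  have hcard := card_union_classes (A G' qPt) hcl 8 b
    (fun k => Dat.hSizes.getD k.val 0) hlt hb (fun k => card_eq_cntB hcl _ _ (h_sizes k))
  rw [card_out htr hst qPt] at hcard
  have h0 : b 0 = true := by
    have : A G' qPt 0 := (A_to_zero htr hst qPt).2 cls_q
    simpa [b, Dat.hRoots] using this
  have h3 : b 3 = false := by
    have : ¬ A G' qPt qPt := A_irrefl htr hst qPt
    simpa [b, Dat.hRoots, qPt] using this
  rcases q_options b h0 h3 hcard.symm with hp | hp
  · rw [hb, hp]; rfl
  -- otherwise the point `0` and its neighbours form a block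
  exfalso
  have hA : ∀ j : Fin 4060, A G' qPt j → cls (j : ℕ) ≠ 2 := by
    intro j hj h2
    rw [hb, hp] at hj
    have h1 := SporOut.Ru.of_allB class_table j.val j.2
    simp only [h2, Nat.beq_refl, cond_true, Bool.and_eq_true, Bool.or_eq_true] at h1
    rcases h1.2 with e | e <;>
    · simp [Nat.eq_of_beq_eq_true e] at hj
  have hA' : ∀ j : Fin 4060, cls (j : ℕ) ≠ 2 → j ≠ qPt → A G' qPt j := by
    intro j h2 hne
    have h1 := SporOut.Ru.of_allB class_table j.val j.2
    have hn3 : hcl j ≠ 3 := fun e => by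
      simp only [e, Nat.beq_refl, cond_true, Bool.and_eq_true] at h1
      exact hne (Fin.ext (Nat.eq_of_beq_eq_true h1.1.2))
    have hn2 : Nat.beq (cls (j : ℕ)) 2 = false := by
      cases hb2 : Nat.beq (cls (j : ℕ)) 2 with
      | false => rfl
      | true => exact absurd (Nat.eq_of_beq_eq_true hb2) h2
    simp only [hn2, cond_false, Bool.and_eq_true, Bool.not_eq_true', Bool.or_eq_false_iff] at h1
    have hn1 := Nat.ne_of_beq_eq_false h1.2.1
    have hn2' := Nat.ne_of_beq_eq_false h1.2.2
    have := hlt j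
    rw [hb, hp]
    rcases (show hcl j = 0 ∨ hcl j = 4 ∨ hcl j = 5 ∨ hcl j = 6 ∨ hcl j = 7 by omega) with
      e | e | e | e | e <;> simp [e]
  let R : Fin 4060 → Fin 4060 → Prop := fun i j => i = j ∨ A G' i j
  have hR0 : ∀ j, R 0 j ↔ cls (j : ℕ) ≠ 2 := by
    intro j
    constructor
    · rintro (rfl | h)
      · rw [cls_0]; decide
      · rw [(A_zero hst j).1 h]; decide
    · intro h
      have := cls_lt j
      rcases (show cls (j : ℕ) = 0 ∨ cls (j : ℕ) = 1 by omega) with e | e
      · exact .inl (cls_eq_zero.1 e).symm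
      · exact .inr ((A_zero hst j).2 e)
  have hstep : ∀ x y : Fin 4060, cls (x : ℕ) = 1 → R x y → cls (y : ℕ) ≠ 2 := by
    intro x y hx hxy
    rcases hxy with rfl | h
    · omega
    obtain ⟨s, hs, rfl⟩ := exists_q hx
    have e : y = s ((s⁻¹ : Equiv.Perm (Fin 4060)) y) := by simp
    rw [e, A_map (S0_mem hst hs)] at h
    rw [e, cls_smul hs]
    exact hA _ h
  have htrans : ∀ {i j k}, R i j → R j k → R i k := by
    intro i j k hij hjk
    rcases hij with rfl | hij
    · exact hjk
    obtain ⟨g, hg, rfl⟩ := htr i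
    have e : ∀ x : Fin 4060, x = g ((g⁻¹ : Equiv.Perm (Fin 4060)) x) := by simp
    rw [e j, A_map hg, A_zero hst] at hij
    have hjk' : R ((g⁻¹ : Equiv.Perm (Fin 4060)) j) ((g⁻¹ : Equiv.Perm (Fin 4060)) k) := by
      rcases hjk with rfl | h
      · exact .inl rfl
      · exact .inr ((A_map (inv_mem hg) j k).2 h)
    have h2 := (hR0 _).2 (hstep _ _ hij hjk')
    rcases h2 with h2 | h2
    · exact .inl (by rw [h2]; exact (e k).symm)
    · exact .inr (by rw [e k, A_map hg]; exact h2)
  have hsymm : ∀ {i j}, R i j → R j i := fun h => h.imp Eq.symm (A_symm htr hst)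
  let f : Fin 4060 → Finset (Fin 4060) := fun i => Finset.univ.filter (R i)
  have hf : ∀ i j, f i = f j ↔ R j i := by
    intro i j
    constructor
    · intro h
      have : i ∈ f j := h ▸ Finset.mem_filter.2 ⟨Finset.mem_univ _, .inl rfl⟩
      exact (Finset.mem_filter.1 this).2
    · intro h
      ext x
      simp only [f, Finset.mem_filter, Finset.mem_univ, true_and]
      exact ⟨fun hx => htrans h hx, fun hx => htrans (hsymm h) hx⟩
  have hfc : ∀ i, (f i).card = 1756 := by
    intro i
    have : f i = insert i (Finset.univ.filter (A G' i)) := by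
      ext x; simp [f, R, eq_comm]
    rw [this, Finset.card_insert_of_notMem (by simp [A_irrefl htr hst i]), card_out htr hst i]
  have hcount := Finset.card_eq_sum_card_image f (Finset.univ : Finset (Fin 4060))
  rw [Finset.sum_congr rfl (g := fun _ => 1756) (fun s hs => by
    obtain ⟨i, -, rfl⟩ := Finset.mem_image.1 hs
    rw [← hfc i]
    congr 1
    ext x
    simp only [f, Finset.mem_filter, Finset.mem_univ, true_and]
    exact ⟨fun h => (hf x i).1 h, fun h => (hf x i).2 h⟩), Finset.sum_const, smul_eq_mul,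
    Finset.card_univ, Fintype.card_fin] at hcount
  omega

theorem A_r (j : Fin 4060) : A G' rPt j ↔ patR j = true := by
  classical
  have hroots := list_roots_lt Dat.kRoots (by decide)
  let b : Fin 9 → Bool := fun k => decide (A G' rPt ⟨Dat.kRoots.getD k.val 0, hroots _⟩)
  have hlt : ∀ j : Fin 4060, kcl j < 9 := fun j =>
    (tree_reach kTree (by decide) hroots j).1
  have hfix : ∀ k ∈ [12, 13], el k rPt = rPt := by
    intro k hk
    simp only [List.mem_cons, List.not_mem_nil, or_false] at hk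
    rcases hk with rfl | rfl
    · exact Fin.ext ((el_apply (by norm_num) _).trans (Nat.eq_of_beq_eq_true fix_table.2.2.1))
    · exact Fin.ext ((el_apply (by norm_num) _).trans (Nat.eq_of_beq_eq_true fix_table.2.2.2.1))
  have hb : ∀ j : Fin 4060, A G' rPt j ↔ b ⟨kcl j, hlt j⟩ = true := by
    intro j
    obtain ⟨-, s, hs, hsp, hsj⟩ := tree_reach kTree (by decide) hroots j
    have h := A_map (S0_mem hst hs) rPt ⟨Dat.kRoots.getD (kcl j) 0, hroots _⟩
    rw [hsp rPt hfix, hsj] at h
    simpa [b] using h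
  have hcard := card_union_classes (A G' rPt) kcl 9 b
    (fun k => Dat.kSizes.getD k.val 0) hlt hb (fun k => card_eq_cntB kcl _ _ (k_sizes k))
  rw [card_out htr hst rPt] at hcard
  have h0 : b 0 = false := by
    have : ¬ A G' rPt 0 := by rw [A_to_zero htr hst, cls_r]; decide
    simpa [b, Dat.kRoots] using this
  have h1 : b 1 = false := by
    have : ¬ A G' rPt rPt := A_irrefl htr hst rPt
    simpa [b, Dat.kRoots, rPt] using this
  have h7 : b 7 = false := by
    have : ¬ A G' rPt qPt := fun h => by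
      have := (A_q htr hst rPt).1 (A_symm htr hst h)
      simp [patQ, hcl_r] at this
    simpa [b, Dat.kRoots, qPt] using this
  rw [hb, r_options b h0 h1 h7 hcard.symm]
  rfl

theorem A_eq (i j : Fin 4060) : A G' i j ↔ Adj i j := by
  have hRt : ∀ i, ∃ g ∈ RK, g 0 = i := RK_trans 0
  have hRs : RK ⊓ stabilizer (Equiv.Perm (Fin 4060)) (0 : Fin 4060) = S0 := rfl
  rw [← A_RK]
  have := cls_lt i
  rcases (show cls (i : ℕ) = 0 ∨ cls (i : ℕ) = 1 ∨ cls (i : ℕ) = 2 by omega) with h | h | h
  · rw [cls_eq_zero.1 h, A_zero hst, A_zero hRs]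
  all_goals
    first
      | obtain ⟨s, hs, rfl⟩ := exists_q h
      | obtain ⟨s, hs, rfl⟩ := exists_r h
    have e : j = s ((s⁻¹ : Equiv.Perm (Fin 4060)) j) := by simp
    rw [e, A_map (S0_mem hst hs), A_map (S0_mem hRs hs)]
  · rw [A_q htr hst, A_q hRt hRs]
  · rw [A_r htr hst, A_r hRt hRs]

end

end Cfsg.Agent.RuRank.GraphRigid

namespace Cfsg.Agent.RuRank

/-- A transitive group with point stabilizer `S0` preserves the graph. -/
theorem adj_invariant (G' : Subgroup (Equiv.Perm (Fin 4060))) (htr : ∀ i, ∃ g ∈ G', g 0 = i)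
    (hst : G' ⊓ stabilizer (Equiv.Perm (Fin 4060)) (0 : Fin 4060) = S0) : G' ≤ autG := by
  intro g hg i j
  rw [← GraphRigid.A_eq htr hst, ← GraphRigid.A_eq htr hst, GraphRigid.A_map hg]

end Cfsg.Agent.RuRank
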