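import Cfsg.Agent.RuRank.Defs
import Cfsg.Agent.ChevSmall.Tits
import Cfsg.Agent.ChevSmall.TitsSylowTab

/-!
The point stabilizer of the Rudvalis group on 4060 points is the twisted group of type F4 over two
elements, generated by the first four tabulated elements.
-/

set_option autoImplicit false
set_option maxRecDepth 100000

namespace Cfsg.Agent.RuRank

open Cfsg.Agent.CosetCert MulAction Cfsg.Agent.ChevSmall
open scoped Matrix

/-- The point of class one attached to a point of the twisted group. -/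
noncomputable def isoBeta (i : ℕ) : ℕ := Dat.betaT.get 16 i

/-- One entry of the check of the bijection. -/
noncomputable def isoOK (i : ℕ) : Bool :=
  Nat.blt (isoBeta i) 4060 && Nat.beq (Dat.betaInvT.get 16 (isoBeta i)) i &&
    (List.range 4).all fun k => Nat.beq (tget k (isoBeta i)) (isoBeta (Tits.permN k i))

theorem iso_table : allB (fun i => Nat.ble 1755 i || isoOK i) 11 0 = true := by decide +kernel

theorem iso_entry {i : ℕ} (hi : i < 1755) : isoBeta i < 4060 ∧ Dat.betaInvT.get 16 (isoBeta i) = i ∧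
    ∀ k < 4, tget k (isoBeta i) = isoBeta (Tits.permN k i) := by
  have h := allB_spec_zero iso_table (n := 1755) (by norm_num) hi
  simp only [Bool.or_eq_true] at h
  rcases h with h | h
  · exact absurd (Nat.le_of_ble_eq_true h) (not_le.2 hi)
  · simp only [isoOK, Bool.and_eq_true, List.all_eq_true, List.mem_range] at h
    exact ⟨Nat.le_of_ble_eq_true h.1.1, Nat.eq_of_beq_eq_true h.1.2,
      fun k hk => Nat.eq_of_beq_eq_true (h.2 k hk)⟩

/-- The point of class one attached to a point of the twisted group. -/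
noncomputable def isoPt (i : Fin 1755) : Fin 4060 := ⟨isoBeta i.val, (iso_entry i.2).1⟩

theorem isoPt_injective : Function.Injective isoPt := fun i j h => by
  have e : isoBeta i.val = isoBeta j.val := congrArg Fin.val h
  refine Fin.ext ?_
  rw [← (iso_entry i.2).2.1, e, (iso_entry j.2).2.1]

/-- Order of the point stabilizer. -/
theorem card_pointStab : Nat.card S0 = 35942400 := by
  have : IsPretransitive RK (Fin 4060) := ⟨fun i j => by
    obtain ⟨g, hg, e⟩ := RK_trans i j
    exact ⟨⟨g, hg⟩, e⟩⟩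
  have h := Subgroup.card_mul_index (stabilizer RK (0 : Fin 4060))
  rw [index_stabilizer_of_transitive, Nat.card_fin, card_RK] at h
  have e : Nat.card (stabilizer RK (0 : Fin 4060)) = Nat.card S0 := by
    refine Nat.card_congr
      { toFun := fun g => ⟨g.1.1, Subgroup.mem_inf.2 ⟨g.1.2, g.2⟩⟩
        invFun := fun g => ⟨⟨g.1, (Subgroup.mem_inf.1 g.2).1⟩, (Subgroup.mem_inf.1 g.2).2⟩
        left_inv := fun g => rfl
        right_inv := fun g => rfl }
  omega

/-- Pairs acting in the same way on the 1755 points. -/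
noncomputable def isoRel : Subgroup (Tits.TG × Equiv.Perm (Fin 4060)) where
  carrier := {p | ∀ i, ∃ j, Tits.mat p.1 *ᵥ Tits.O i = Tits.O j ∧ p.2 (isoPt i) = isoPt j}
  one_mem' i := ⟨i, by simp [Tits.mat_one], rfl⟩
  mul_mem' {p q} hp hq i := by
    obtain ⟨j, hj, hj'⟩ := hq i
    obtain ⟨l, hl, hl'⟩ := hp j
    refine ⟨l, ?_, ?_⟩
    · show Tits.mat (p.1 * q.1) *ᵥ Tits.O i = Tits.O l
      rw [Tits.mat_mul, ← Matrix.mulVec_mulVec, hj, hl]
    · show (p.2 * q.2) (isoPt i) = isoPt l
      rw [Equiv.Perm.mul_apply, hj', hl']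
  inv_mem' {p} hp i := by
    obtain ⟨j, hj⟩ := Tits.exists_image p.1⁻¹ i
    obtain ⟨l, hl, hl'⟩ := hp j
    have e : l = i := by
      refine Tits.O_injective ?_
      rw [← hl, ← hj, Matrix.mulVec_mulVec, ← Tits.mat_mul, mul_inv_cancel, Tits.mat_one,
        Matrix.one_mulVec]
    subst e
    refine ⟨j, hj, ?_⟩
    show (p.2)⁻¹ (isoPt l) = isoPt j
    rw [← hl']
    exact p.2.symm_apply_apply _

theorem isoRel_gen {k : ℕ} (hk : k < 4) : (Tits.genG k, el k) ∈ isoRel := by
  intro i
  refine ⟨_, Tits.gen_O hk i, Fin.ext ?_⟩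
  rw [el_apply (by omega)]
  exact (iso_entry i.2).2.2 k hk

theorem eq_of_mat_O {a b : Tits.TG} (h : ∀ i, Tits.mat a *ᵥ Tits.O i = Tits.mat b *ᵥ Tits.O i) :
    a = b := by
  refine Subtype.ext (Units.ext (Matrix.ext_of_mulVec_single fun j => ?_))
  show Tits.mat a *ᵥ Pi.single j 1 = Tits.mat b *ᵥ Pi.single j 1
  obtain ⟨hlen, hlt, hb⟩ := Tits.basis_ok
  simp only [List.all_eq_true, List.mem_range, beq_iff_eq] at hb
  have hj := hb _ (Tits.dim_eq ▸ Chev.code_lt Cfsg.Lie.chevF4 j)
  rw [← Tits.vecOf_two_pow, ← hj, Tits.vecOf_appL, Tits.vecOf_zero, zero_add, Matrix.mulVec_sum, Matrix.mulVec_sum]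
  refine Finset.sum_congr rfl fun c hc => ?_
  have hc' : c < Tits.basisIdx.length := by simpa using hc
  split
  · rw [List.getD_eq_getElem _ _ (by simpa using hc'), List.getElem_map]
    exact h ⟨Tits.basisIdx[c], hlt _ (List.getElem_mem hc')⟩
  · rw [Matrix.mulVec_zero, Matrix.mulVec_zero]

/-- The group generated by the pairs of generators. -/
noncomputable def isoGraph : Subgroup (Tits.TG × Equiv.Perm (Fin 4060)) :=
  Subgroup.closure {p | ∃ k < 4, p = (Tits.genG k, el k)}

theorem isoGraph_le_rel : isoGraph ≤ isoRel := (Subgroup.closure_le _).2 fun p hp => by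
  obtain ⟨k, hk, rfl⟩ := hp
  exact isoRel_gen hk

theorem isoGraph_map_snd : isoGraph.map (MonoidHom.snd Tits.TG (Equiv.Perm (Fin 4060))) =
    Subgroup.closure {g | ∃ k < 4, g = el k} := by
  rw [isoGraph, MonoidHom.map_closure]
  congr 1
  ext g
  constructor
  · rintro ⟨p, ⟨k, hk, rfl⟩, rfl⟩
    exact ⟨k, hk, rfl⟩
  · rintro ⟨k, hk, rfl⟩
    exact ⟨_, ⟨k, hk, rfl⟩, rfl⟩

/-- The main step: both projections of the graph are bijective. -/
theorem isoGraph_spec : S0 ≤ Subgroup.closure {g | ∃ k < 4, g = el k} ∧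
    Nonempty (Tits.TG ≃* ↥S0) := by
  haveI := Tits.finite_TG
  set D := isoGraph with hD
  let f : ↥D →* Tits.TG := (MonoidHom.fst _ _).comp D.subtype
  have hf : Function.Surjective f := by
    intro a
    refine Tits.gen_induction (P := fun a => ∃ d, f d = a) ⟨1, map_one f⟩ ?_ ?_ a
    · rintro x y ⟨d, rfl⟩ ⟨e, rfl⟩
      exact ⟨d * e, map_mul f d e⟩
    · exact fun k hk => ⟨⟨_, Subgroup.subset_closure ⟨k, hk, rfl⟩⟩, rfl⟩
  let g : ↥D →* ↥(D.map (MonoidHom.snd Tits.TG (Equiv.Perm (Fin 4060)))) :=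
    (MonoidHom.snd Tits.TG (Equiv.Perm (Fin 4060))).subgroupMap D
  have hg : Function.Bijective g := by
    refine ⟨fun p q h => ?_, MonoidHom.subgroupMap_surjective _ D⟩
    have e : p.1.2 = q.1.2 := congrArg Subtype.val h
    refine Subtype.ext (Prod.ext (eq_of_mat_O fun i => ?_) e)
    obtain ⟨j, hj, hj'⟩ := isoGraph_le_rel p.2 i
    obtain ⟨l, hl, hl'⟩ := isoGraph_le_rel q.2 i
    rw [e, hl'] at hj'
    rw [hj, hl, isoPt_injective hj']
  have hle : D.map (MonoidHom.snd Tits.TG (Equiv.Perm (Fin 4060))) ≤ S0 := by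
    rw [hD, isoGraph_map_snd, Subgroup.closure_le]
    rintro _ ⟨k, hk, rfl⟩
    exact el_mem (by omega)
  have h1 : Nat.card Tits.TG ≤ Nat.card ↥D := Nat.card_le_card_of_surjective f hf
  have h2 : Nat.card ↥D = Nat.card ↥(D.map (MonoidHom.snd Tits.TG (Equiv.Perm (Fin 4060)))) :=
    Nat.card_eq_of_bijective g hg
  have h3 := Subgroup.card_le_of_le hle
  rw [Tits.card_TG] at h1
  rw [card_pointStab] at h3
  have heq : D.map (MonoidHom.snd Tits.TG (Equiv.Perm (Fin 4060))) = S0 :=
    Subgroup.eq_of_le_of_card_ge hle (by rw [card_pointStab]; omega)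
  refine ⟨?_, ?_⟩
  · rw [← isoGraph_map_snd]
    exact heq.ge
  · have hfb : Function.Bijective f := by
      rw [Nat.bijective_iff_surjective_and_card]
      exact ⟨hf, by rw [Tits.card_TG]; omega⟩
    exact ⟨(MulEquiv.ofBijective f hfb).symm.trans
      ((MulEquiv.ofBijective g hg).trans (MulEquiv.subgroupCongr heq))⟩

theorem S0_le_closure : S0 ≤ Subgroup.closure {g | ∃ k < 4, g = el k} := isoGraph_spec.1

theorem tits_iso : Nonempty (ChevSmall.Tits.TG ≃* ↥S0) := isoGraph_spec.2

end Cfsg.Agent.RuRank
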