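import Cfsg.Agent.RuRank.Facts

/-!
Subgroups of order 20480 of the point stabilizer fix a point of the class 1.
-/

set_option autoImplicit false
set_option maxRecDepth 100000

namespace Cfsg.Agent.RuRank

open Cfsg.Agent.CosetCert MulAction
open scoped Pointwise

namespace UOne

/-- The ten points with a short orbit under the stabilizer of the root. -/
def ten : List ℕ := [3330, 3843, 4048, 4049, 4050, 4051, 4052, 4053, 4054, 4055]

/-- Twenty one points in each long class. -/
def sample : List (List ℕ) := [[], [1, 2, 3, 4, 5, 6, 7, 8, 9, 10, 11, 12, 13, 14, 15, 16, 17, 18, 19, 20, 21], [641, 642, 643, 644, 645, 646, 647, 648, 649, 650, 651, 652, 653, 654, 655, 656, 657, 658, 659, 660, 661], [], [2306, 2307, 2308, 2309, 2310, 2311, 2312, 2313, 2314, 2315, 2316, 2317, 2318, 2319, 2320, 2321, 2322, 2323, 2324, 2325, 2326], [], [3331, 3332, 3333, 3334, 3335, 3336, 3337, 3338, 3339, 3340, 3341, 3342, 3343, 3344, 3345, 3346, 3347, 3348, 3349, 3350, 3351], [3844,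 3877, 3878, 3879, 3880, 3881, 3882, 3883, 3884, 3885, 3886, 3887, 3888, 3889, 3890, 3891, 3892, 3893, 3894, 3895, 3896]]

/-- Class of a point. -/
noncomputable def hc (i : ℕ) : ℕ := Dat.hClsT.get 4 i

/-- Word from the root of the class. -/
noncomputable def hw (i : ℕ) : List ℕ := dec [10, 11] 21 (Dat.hWordT.get 64 i)

/-- Word from the root of the class 1. -/
noncomputable def sw (i : ℕ) : List ℕ := dec [0, 1, 2, 3, 4, 5] 21 (Dat.sWordT.get 64 i)

/-- Root of the class of a point. -/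
noncomputable def hroot (c : ℕ) : ℕ := Dat.hRoots.getD c 0

/-- Check at one point. -/
noncomputable def pointOK (i : ℕ) : Bool :=
  Nat.beq (ap (hw i) (hroot (hc i))) i && (hw i).all (fun k => Nat.beq k 10 || Nat.beq k 11) &&
    Nat.blt (hroot (hc i)) 4060 &&
    (Nat.beq i 0 || Nat.beq i 2305 || ten.any (Nat.beq i) ||
      Nat.beq (sample.getD (hc i) []).length 21)

/-- Check on a quarter of the points. -/
noncomputable def pointQuarter (lo : ℕ) : Bool := allB (fun i => Nat.ble 4060 i || pointOK i) 10 lo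

theorem point_0 : pointQuarter 0 = true := by decide +kernel

theorem point_1 : pointQuarter 1024 = true := by decide +kernel

theorem point_2 : pointQuarter 2048 = true := by decide +kernel

theorem point_3 : pointQuarter 3072 = true := by decide +kernel

theorem point_table (i : Fin 4060) : pointOK i.val = true := by
  have h : (Nat.ble 4060 i.val || pointOK i.val) = true := by
    rcases Nat.lt_or_ge i.val 1024 with c | c
    · exact allB_spec point_0 i.val (Nat.zero_le _) (by norm_num; omega)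
    rcases Nat.lt_or_ge i.val 2048 with c' | c'
    · exact allB_spec point_1 i.val c (by norm_num; omega)
    rcases Nat.lt_or_ge i.val 3072 with c'' | c''
    · exact allB_spec point_2 i.val c' (by norm_num; omega)
    · exact allB_spec point_3 i.val c'' (by norm_num; omega)
  rw [Bool.or_eq_true] at h
  exact h.resolve_left fun e => absurd (Nat.le_of_ble_eq_true e) (not_le.2 i.2)

/-- Check of one sample. -/
noncomputable def sampleOK (c : ℕ) : Bool :=
  (sample.getD c []).all (fun j => Nat.beq (hc j) c && Nat.blt j 4060)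

theorem sample_table : ∀ c : Fin 8, sampleOK c.val = true := by decide +kernel

theorem sample_nodup : ∀ c : Fin 8, (sample.getD c.val []).Nodup := by decide

/-- Check at one of the ten points: its transversal word maps at most one of the ten back. -/
noncomputable def tenOK (y : ℕ) : Bool :=
  Nat.beq (ap (sw y) 2305) y && (sw y).all (fun k => Nat.blt k 14) &&
    Nat.ble (ten.countP (fun a => ten.any (Nat.beq (ap (sw y) a)))) 1

theorem ten_table : ∀ y : Fin 10, tenOK (ten.getD y.val 0) = true := by decide +kernel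

theorem gen_fix : ∀ k : Fin 2, Nat.beq (tget (k.val + 10) 2305) 2305 = true := by decide +kernel

theorem cls_root : Nat.beq (cls 2305) 1 = true := by decide +kernel

theorem el_Hq {k : ℕ} (hk : k = 10 ∨ k = 11) : el k ∈ Hq := by
  have h14 : k < 14 := by omega
  refine Subgroup.mem_inf.2 ⟨el_mem h14, mem_stabilizer_iff.2 (Fin.ext ?_)⟩
  change (el k qPt : ℕ) = _
  rw [el_apply h14]
  rcases hk with rfl | rfl
  · exact Nat.eq_of_beq_eq_true (gen_fix 0)
  · exact Nat.eq_of_beq_eq_true (gen_fix 1)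

theorem wEl_Hq {w : List ℕ} (hw : ∀ k ∈ w, k = 10 ∨ k = 11) : wEl w ∈ Hq :=
  list_prod_mem fun p hp => by
    obtain ⟨k, hk, rfl⟩ := List.mem_map.1 hp
    exact el_Hq (hw k hk)

theorem point_spec (i : Fin 4060) :
    (∃ r : Fin 4060, (r : ℕ) = hroot (hc i.val) ∧ i ∈ orbit Hq r) ∧
      (i.val = 0 ∨ i.val = 2305 ∨ i.val ∈ ten ∨ (sample.getD (hc i.val) []).length = 21) := by
  have h := point_table i
  simp only [pointOK, Bool.and_eq_true, Bool.or_eq_true] at h
  obtain ⟨⟨⟨h1, h2⟩, h3⟩, h4⟩ := h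
  refine ⟨⟨⟨_, Nat.le_of_ble_eq_true h3⟩, rfl, ?_⟩, ?_⟩
  · have hw' : ∀ k ∈ hw i.val, k = 10 ∨ k = 11 := fun k hk => by
      have := List.all_eq_true.1 h2 k hk
      rw [Bool.or_eq_true] at this
      exact this.imp Nat.eq_of_beq_eq_true Nat.eq_of_beq_eq_true
    refine ⟨⟨wEl (hw i.val), wEl_Hq hw'⟩, Fin.ext ?_⟩
    change (wEl (hw i.val) _ : ℕ) = _
    rw [wEl_apply _ (fun k hk => by rcases hw' k hk with e | e <;> omega)]
    exact Nat.eq_of_beq_eq_true h1
  · rcases h4 with ((h4 | h4) | h4) | h4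
    · exact Or.inl (Nat.eq_of_beq_eq_true h4)
    · exact Or.inr (Or.inl (Nat.eq_of_beq_eq_true h4))
    · obtain ⟨a, ha, hb⟩ := List.any_eq_true.1 h4
      exact Or.inr (Or.inr (Or.inl (Nat.eq_of_beq_eq_true hb ▸ ha)))
    · exact Or.inr (Or.inr (Or.inr (Nat.eq_of_beq_eq_true h4)))

/-- Points with at most twenty images under `Hq`. -/
theorem short_orbit {x : Fin 4060} (hx : (orbit Hq x).ncard ≤ 20) (h0 : x ≠ 0) (hq : x ≠ qPt) :
    x.val ∈ ten := by
  obtain ⟨⟨r, hr, hxr⟩, h | h | h | h⟩ := point_spec x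
  · exact absurd (Fin.ext h) h0
  · exact absurd (Fin.ext h) hq
  · exact h
  exfalso
  set c := hc x.val with hcdef
  have hc8 : c < 8 := by
    by_contra hge
    rw [List.getD_eq_default _ _ (show sample.length ≤ c from le_of_not_gt hge)] at h
    simp at h
  have hnd := sample_nodup ⟨c, hc8⟩
  have hs := List.all_eq_true.1 (sample_table ⟨c, hc8⟩)
  have hsub : (↑(sample.getD c []).toFinset : Set ℕ) ⊆ Fin.val '' orbit Hq x := fun j hj => by
    have hj' := hs j (by simpa using hj)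
    rw [Bool.and_eq_true] at hj'
    have hjlt : j < 4060 := Nat.le_of_ble_eq_true hj'.2
    obtain ⟨⟨r', hr', hjr⟩, -⟩ := point_spec ⟨j, hjlt⟩
    refine ⟨⟨j, hjlt⟩, ?_, rfl⟩
    have : r' = r := Fin.ext (by rw [hr', hr]; exact congrArg hroot (Nat.eq_of_beq_eq_true hj'.1))
    rw [orbit_eq_iff.2 hxr, ← this]
    exact hjr
  have h1 := Set.ncard_le_ncard hsub (Set.toFinite _)
  rw [Set.ncard_coe_finset, List.toFinset_card_of_nodup hnd, h,
    Set.ncard_image_of_injective _ Fin.val_injective] at h1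
  omega

theorem qPt_ne_zero : qPt ≠ 0 := fun e => absurd (congrArg Fin.val e) (by simp [qPt])

theorem S0_zero {g : Equiv.Perm (Fin 4060)} (hg : g ∈ S0) : g 0 = 0 :=
  mem_stabilizer_iff.1 (Subgroup.mem_inf.1 hg).2

theorem ten_pair {y : Fin 4060} (hy : y.val ∈ ten) :
    ∃ g ∈ S0, g qPt = y ∧ ∀ a b : Fin 4060, a.val ∈ ten → b.val ∈ ten →
      (g a).val ∈ ten → (g b).val ∈ ten → a = b := by
  obtain ⟨n, hn, hny⟩ := List.getElem_of_mem hy
  have h := ten_table ⟨n, hn⟩
  rw [show ten.getD (⟨n, hn⟩ : Fin 10).val 0 = y.val by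
    simp [List.getD_eq_getElem?_getD, List.getElem?_eq_getElem hn, hny]] at h
  simp only [tenOK, Bool.and_eq_true] at h
  obtain ⟨⟨h1, h2⟩, h3⟩ := h
  have hw : ∀ k ∈ sw y.val, k < 14 := fun k hk => Nat.le_of_ble_eq_true (List.all_eq_true.1 h2 k hk)
  refine ⟨wEl (sw y.val), wEl_mem hw, Fin.ext ?_, fun a b ha hb hga hgb => ?_⟩
  · rw [wEl_apply _ hw]; exact Nat.eq_of_beq_eq_true h1
  · rw [wEl_apply _ hw] at hga hgb
    by_contra hab
    have hp : ∀ c : ℕ, ap (sw y.val) c ∈ ten → ten.any (Nat.beq (ap (sw y.val) c)) = true :=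
      fun c hc => List.any_eq_true.2 ⟨_, hc, Nat.beq_refl _⟩
    have hsub : [a.val, b.val] ⊆ ten.filter (fun c => ten.any (Nat.beq (ap (sw y.val) c))) := by
      intro c hc
      rcases List.mem_pair.1 hc with rfl | rfl
      · exact List.mem_filter.2 ⟨ha, hp _ hga⟩
      · exact List.mem_filter.2 ⟨hb, hp _ hgb⟩
    have h5 := ((List.nodup_cons.2 ⟨by simpa using fun e => hab (Fin.ext e), List.nodup_singleton _⟩ :
      [a.val, b.val].Nodup).subperm hsub).length_le
    rw [← List.countP_eq_length_filter] at h5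
    have := Nat.le_of_ble_eq_true h3
    simp only [List.length_cons, List.length_nil] at h5
    omega

/-- A subgroup of order 20480 containing a Sylow 2-subgroup of `Hq` fixes the root. -/
theorem fix_root (cardHq : Nat.card Hq = 20480) {M P : Subgroup (Equiv.Perm (Fin 4060))} (hM : M ≤ S0)
    (hc : Nat.card M = 20480) (hPM : P ≤ M) (hPH : P ≤ Hq) (hP : Nat.card P = 4096) :
    M ≤ Hq := by
  classical
  have hstab : Nat.card P ∣ Nat.card (stabilizer M qPt) := by
    rw [← Subgroup.card_map_of_injective (K := stabilizer M qPt) M.subtype_injective]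
    refine Subgroup.card_dvd_of_le fun p hp => ⟨⟨p, hPM hp⟩, ?_, rfl⟩
    exact mem_stabilizer_iff.1 (Subgroup.mem_inf.1 (hPH hp)).2
  have hn : (orbit M qPt).ncard ∣ 5 := by
    have h1 := (stabilizer M qPt).index_mul_card
    rw [index_stabilizer, hc] at h1
    rw [hP] at hstab
    obtain ⟨t, ht⟩ := hstab
    rw [ht] at h1
    exact ⟨t, by nlinarith⟩
  rcases (Nat.dvd_prime (by norm_num)).1 hn with h1 | h5
  · intro m hm
    refine Subgroup.mem_inf.2 ⟨hM hm, mem_stabilizer_iff.2 ?_⟩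
    obtain ⟨a, ha⟩ := Set.ncard_eq_one.1 h1
    have e1 : m qPt ∈ orbit M qPt := ⟨⟨m, hm⟩, rfl⟩
    have e2 : qPt ∈ orbit M qPt := mem_orbit_self _
    rw [ha, Set.mem_singleton_iff] at e1 e2
    exact e1.trans e2.symm
  exfalso
  set O := orbit M qPt with hO
  have hshort : ∀ x ∈ O, x ≠ qPt → (orbit Hq x).ncard ≤ 20 := by
    intro x hx hxq
    have hPo : (orbit P x).ncard ≤ 4 := by
      have hsub : orbit P x ⊆ O \ {qPt} := by
        rintro _ ⟨⟨p, hp⟩, rfl⟩
        refine ⟨?_, fun e => hxq ?_⟩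
        · obtain ⟨⟨m, hm⟩, rfl⟩ := hx
          exact ⟨⟨p * m, mul_mem (hPM hp) hm⟩, rfl⟩
        · apply p.injective
          exact (Set.mem_singleton_iff.1 e).trans
            (mem_stabilizer_iff.1 (Subgroup.mem_inf.1 (hPH hp)).2).symm
      refine (Set.ncard_le_ncard hsub (Set.toFinite _)).trans ?_
      rw [Set.ncard_sdiff_singleton_of_mem (mem_orbit_self _), h5]
    have hle : Nat.card (stabilizer P x) ≤ Nat.card (stabilizer Hq x) := by
      rw [← Subgroup.card_map_of_injective (K := stabilizer P x) P.subtype_injective,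
        ← Subgroup.card_map_of_injective (K := stabilizer Hq x) Hq.subtype_injective]
      refine Subgroup.card_le_of_le ?_
      rintro _ ⟨p, hp, rfl⟩
      exact ⟨⟨p.1, hPH p.2⟩, hp, rfl⟩
    have h1 := (stabilizer P x).index_mul_card
    have h2 := (stabilizer Hq x).index_mul_card
    rw [index_stabilizer, hP] at h1
    rw [index_stabilizer, cardHq] at h2
    by_contra hgt
    nlinarith [Nat.zero_le (Nat.card (stabilizer P x))]
  have hne0 : ∀ m ∈ S0, m qPt ≠ 0 := fun m hm e =>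
    qPt_ne_zero (m.injective (e.trans (S0_zero hm).symm))
  have hten : ∀ x ∈ O, x ≠ qPt → x.val ∈ ten := fun x hx hxq => by
    refine short_orbit (hshort x hx hxq) ?_ hxq
    obtain ⟨⟨m, hm⟩, rfl⟩ := hx
    exact hne0 m (hM hm)
  obtain ⟨y, hyO, hyq⟩ := Set.exists_ne_of_one_lt_ncard (by omega : 1 < O.ncard) qPt
  obtain ⟨g, hg, hgy, hpair⟩ := ten_pair (hten y hyO hyq)
  obtain ⟨⟨m, hm⟩, hmy⟩ := hyO
  have hmy' : m qPt = y := hmy
  have hk : g⁻¹ * m ∈ Hq := by
    refine Subgroup.mem_inf.2 ⟨mul_mem (inv_mem hg) (hM hm), mem_stabilizer_iff.2 ?_⟩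
    show g⁻¹ (m qPt) = qPt
    rw [hmy', ← hgy]
    exact g.symm_apply_apply qPt
  have hback : ∀ z ∈ O, z ≠ y → (g⁻¹ z).val ∈ ten := by
    intro z hz hzy
    have hxq : m⁻¹ z ≠ qPt := fun e => hzy (by rw [← hmy', ← e]; exact (m.apply_symm_apply z).symm)
    have hxO : m⁻¹ z ∈ O := by
      obtain ⟨⟨n, hn'⟩, rfl⟩ := hz
      exact ⟨⟨m⁻¹ * n, mul_mem (inv_mem hm) hn'⟩, rfl⟩
    have e : g⁻¹ z = (g⁻¹ * m) (m⁻¹ z) := by
      rw [Equiv.Perm.mul_apply]
      exact congrArg _ (m.apply_symm_apply z).symm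
    refine short_orbit ?_ ?_ ?_
    · have : orbit Hq (g⁻¹ z) = orbit Hq (m⁻¹ z) := orbit_eq_iff.2 ⟨⟨_, hk⟩, e.symm⟩
      rw [this]
      exact hshort _ hxO hxq
    · rw [e]
      obtain ⟨⟨n, hn'⟩, hnz⟩ := hxO
      rw [← hnz]
      exact hne0 (g⁻¹ * m * n) (mul_mem (mul_mem (inv_mem hg) (hM hm)) (hM hn'))
    · intro e'
      apply hzy
      rw [← hgy, ← e']
      exact (g.apply_symm_apply z).symm
  have hrest : 1 < ((O \ {qPt}) \ {y}).ncard := by
    rw [Set.ncard_sdiff_singleton_of_mem (show y ∈ O \ {qPt} from ⟨⟨⟨m, hm⟩, hmy⟩, hyq⟩),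
      Set.ncard_sdiff_singleton_of_mem (mem_orbit_self _), h5]
    omega
  obtain ⟨a, ⟨⟨haO, haq⟩, hay⟩, b, ⟨⟨hbO, hbq⟩, hby⟩, hab⟩ := (Set.one_lt_ncard (Set.toFinite _)).1 hrest
  refine hab (g⁻¹.injective (hpair _ _ (hback a haO hay) (hback b hbO hby) ?_ ?_))
  · rw [show g (g⁻¹ a) = a from g.apply_symm_apply a]; exact hten a haO haq
  · rw [show g (g⁻¹ b) = b from g.apply_symm_apply b]; exact hten b hbO hbq

theorem main (cardS0 : Nat.card S0 = 35942400) (cardHq : Nat.card Hq = 20480)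
    (clsSmul : ∀ {g : Equiv.Perm (Fin 4060)}, g ∈ S0 → ∀ i : Fin 4060, cls (g i : ℕ) = cls (i : ℕ))
    (M : Subgroup (Equiv.Perm (Fin 4060))) (hM : M ≤ S0) (hc : Nat.card M = 20480) :
    ∃ q : Fin 4060, cls q = 1 ∧ M = S0 ⊓ stabilizer (Equiv.Perm (Fin 4060)) q := by
  classical
  have : Fact (Nat.Prime 2) := ⟨Nat.prime_two⟩
  obtain ⟨A, hA⟩ := Sylow.exists_subgroup_card_pow_prime (G := Hq) 2 (n := 12) (by rw [cardHq]; norm_num)
  obtain ⟨B, hB⟩ := Sylow.exists_subgroup_card_pow_prime (G := M) 2 (n := 12) (by rw [hc]; norm_num)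
  have hfac : (Nat.card S0).factorization 2 = 12 := by
    rw [cardS0, show 35942400 = 2 ^ 12 * 8775 by norm_num, Nat.factorization_mul (by norm_num) (by norm_num),
      Finsupp.add_apply, Nat.prime_two.factorization_pow, Finsupp.single_eq_same,
      Nat.factorization_eq_zero_of_not_dvd (by norm_num : ¬ 2 ∣ 8775)]
  set PA := A.map Hq.subtype with hPA
  set PB := B.map M.subtype with hPB
  have hcA : Nat.card PA = 4096 := by
    rw [hPA, Subgroup.card_map_of_injective Hq.subtype_injective, hA]; norm_num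
  have hcB : Nat.card PB = 4096 := by
    rw [hPB, Subgroup.card_map_of_injective M.subtype_injective, hB]; norm_num
  have hAH : PA ≤ Hq := Subgroup.map_subtype_le _
  have hBM : PB ≤ M := Subgroup.map_subtype_le _
  have hAS : PA ≤ S0 := hAH.trans inf_le_left
  have hBS : PB ≤ S0 := hBM.trans hM
  let SA : Sylow 2 S0 := Sylow.ofCard (PA.subgroupOf S0) (by
    rw [Nat.card_congr (Subgroup.subgroupOfEquivOfLe hAS).toEquiv, hcA, hfac]; norm_num)
  let SB : Sylow 2 S0 := Sylow.ofCard (PB.subgroupOf S0) (by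
    rw [Nat.card_congr (Subgroup.subgroupOfEquivOfLe hBS).toEquiv, hcB, hfac]; norm_num)
  obtain ⟨⟨g, hg⟩, hgAB⟩ := exists_smul_eq S0 SA SB
  have hgle : ∀ a ∈ PA, g * a * g⁻¹ ∈ PB := by
    intro a ha
    have h1 : (⟨g, hg⟩ : S0) * ⟨a, hAS ha⟩ * (⟨g, hg⟩ : S0)⁻¹ ∈ ((⟨g, hg⟩ : S0) • SA : Sylow 2 S0) :=
      Subgroup.mem_map_of_mem (MulDistribMulAction.toMonoidEnd (MulAut S0) S0 (MulAut.conj ⟨g, hg⟩))
        (show (⟨a, hAS ha⟩ : S0) ∈ PA.subgroupOf S0 from ha)
    rw [hgAB] at h1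
    exact h1
  set M' := M.comap (MulAut.conj g).toMonoidHom with hM'def
  have hM'S : M' ≤ S0 := fun x hx => by
    have h := mul_mem (mul_mem (inv_mem hg) (hM (show g * x * g⁻¹ ∈ M from hx))) hg
    simpa [mul_assoc] using h
  have hM'c : Nat.card M' = 20480 := by
    rw [← hc]
    refine Nat.card_congr (((MulAut.conj g).subgroupMap M').toEquiv.trans (MulEquiv.subgroupCongr ?_).toEquiv)
    exact Subgroup.map_comap_eq_self_of_surjective (MulAut.conj g).surjective M
  have hle := fix_root cardHq hM'S hM'c (fun a ha => hBM (hgle a ha)) hAH hcA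
  have heq : M' = Hq := Subgroup.eq_of_le_of_card_ge hle (by rw [hM'c, cardHq])
  refine ⟨g qPt, ?_, ?_⟩
  · rw [clsSmul hg]; exact Nat.eq_of_beq_eq_true cls_root
  ext x
  have hx : x ∈ M ↔ g⁻¹ * x * g ∈ Hq := by
    rw [← heq, hM'def, Subgroup.mem_comap]
    simp [mul_assoc]
  rw [hx, Subgroup.mem_inf, Hq, Subgroup.mem_inf, mem_stabilizer_iff, mem_stabilizer_iff]
  refine and_congr ⟨fun h => ?_, fun h => mul_mem (mul_mem (inv_mem hg) h) hg⟩
    (show g⁻¹ (x (g qPt)) = qPt ↔ x (g qPt) = g qPt from g.symm_apply_eq)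
  simpa [mul_assoc] using mul_mem (mul_mem hg h) (inv_mem hg)

end UOne

/-- Every subgroup of order 20480 of the point stabilizer fixes a point of the class 1. -/
theorem index_1755 (M : Subgroup (Equiv.Perm (Fin 4060))) (hM : M ≤ S0) (hc : Nat.card M = 20480) :
    ∃ q : Fin 4060, cls q = 1 ∧ M = S0 ⊓ stabilizer (Equiv.Perm (Fin 4060)) q :=
  UOne.main card_S0 card_Hq cls_smul M hM hc

end Cfsg.Agent.RuRank
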