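import Cfsg.Agent.RuRank.Defs
import Cfsg.Agent.RuRank.DataSyl
import Cfsg.Agent.RuRank.Facts

/-!
The subgroups of order 25 of the point stabilizer of the Rudvalis group are conjugate to `P0` by a
product of a word in the representatives and an element of the normalizer of a subgroup of order 13.
-/

set_option autoImplicit false
set_option maxRecDepth 100000
set_option linter.style.haveILetI false

namespace Cfsg.Agent.RuRank

open Cfsg.Agent.CosetCert MulAction
open scoped Pointwise

attribute [local irreducible] el S0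

/-- The subgroup of order 25. -/
noncomputable def P0 : Subgroup (Equiv.Perm (Fin 4060)) := Subgroup.closure {el 8, el 9}

namespace Syl

/-- Entry `i` of the table of sets. -/
noncomputable def setE (i : ℕ) : ℕ := Dat.setT.get 64 i

/-- Point `j` of a packed set. -/
noncomputable def ptE (e j : ℕ) : ℕ := Nat.mod (Nat.shiftRight e (Nat.mul 12 j)) 4096

/-- Membership in a packed set. -/
noncomputable def inE (e x : ℕ) : Bool :=
  Nat.beq (ptE e 0) x || (Nat.beq (ptE e 1) x || (Nat.beq (ptE e 2) x || Nat.beq (ptE e 3) x))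

/-- A map sends a packed set into another. -/
noncomputable def mapE (f : ℕ → ℕ) (e e' : ℕ) : Bool :=
  inE e' (f (ptE e 0)) && (inE e' (f (ptE e 1)) && (inE e' (f (ptE e 2)) && inE e' (f (ptE e 3))))

/-- One step of the closure check. -/
noncomputable def stepK (i k : ℕ) : Bool :=
  let t := Nat.mod (Nat.shiftRight (Dat.stepT.get 64 i) (Nat.mul 16 k)) 65536
  Nat.blt t 14976 && mapE (tget k) (setE i) (setE t)

/-- The closure check at one set. -/
noncomputable def stepOK (i : ℕ) : Bool := stepK i 0 && (stepK i 1 && (stepK i 2 && stepK i 3))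

/-- The reachability check at one set. -/
noncomputable def parOK (i : ℕ) : Bool :=
  let c := Dat.parT.get 32 i
  bif Nat.beq (Nat.mod c 4) 2 then
    Nat.blt (Nat.div c 4) 102 && mapE (ap (Dat.repWords.getD (Nat.div c 4) [])) (setE 0) (setE i)
  else Nat.blt (Nat.mod c 4) 2 && (Nat.blt (Nat.div c 4) i &&
    mapE (tget (Nat.add 6 (Nat.mod c 4))) (setE (Nat.div c 4)) (setE i))

/-- Words from 416 to the 78 points of its orbit in the stabilizer of 0 and 1. -/
def orbW : List (List ℕ) := [
    [], [12], [13], [12, 12], [13, 12], [12, 13], [12, 12, 12], [13, 12, 12], [12, 13, 12],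
    [12, 12, 13], [13, 12, 13], [12, 12, 12, 12], [13, 12, 12, 12], [12, 13, 12, 12],
    [12, 12, 13, 12], [13, 12, 13, 12], [12, 12, 12, 13], [13, 12, 12, 13], [12, 13, 12, 13],
    [12, 12, 12, 12, 12], [13, 12, 12, 12, 12], [12, 13, 12, 12, 12], [12, 12, 13, 12, 12],
    [13, 12, 13, 12, 12], [13, 12, 12, 13, 12], [12, 13, 12, 13, 12], [12, 12, 12, 12, 13],
    [12, 13, 12, 12, 13], [12, 12, 13, 12, 13], [13, 12, 13, 12, 13], [12, 12, 12, 12, 12, 12],
    [12, 13, 12, 12, 12, 12], [12, 12, 13, 12, 12, 12], [12, 12, 12, 13, 12, 12],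
    [13, 12, 12, 13, 12, 12], [12, 12, 13, 12, 13, 12], [13, 12, 13, 12, 13, 12],
    [12, 12, 12, 12, 12, 13], [13, 12, 12, 12, 12, 13], [12, 12, 13, 12, 12, 13],
    [12, 12, 12, 13, 12, 13], [12, 13, 12, 13, 12, 13], [12, 12, 12, 12, 12, 12, 12],
    [13, 12, 12, 12, 12, 12, 12], [12, 12, 13, 12, 12, 12, 12], [12, 12, 12, 12, 13, 12, 12],
    [13, 12, 12, 12, 13, 12, 12], [12, 13, 12, 12, 13, 12, 12], [12, 12, 12, 13, 12, 13, 12],
    [13, 12, 12, 13, 12, 13, 12], [12, 13, 12, 13, 12, 13, 12], [13, 12, 12, 12, 12, 12, 13],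
    [12, 13, 12, 12, 12, 12, 13], [12, 12, 12, 13, 12, 12, 13], [13, 12, 12, 13, 12, 12, 13],
    [12, 12, 12, 12, 13, 12, 13], [13, 12, 12, 12, 13, 12, 13], [12, 12, 13, 12, 13, 12, 13],
    [12, 12, 12, 12, 12, 12, 12, 12], [12, 13, 12, 12, 12, 12, 12, 12],
    [12, 12, 12, 13, 12, 12, 12, 12], [12, 12, 12, 12, 12, 13, 12, 12],
    [13, 12, 12, 12, 12, 13, 12, 12], [12, 12, 13, 12, 12, 13, 12, 12],
    [13, 12, 12, 12, 13, 12, 13, 12], [12, 12, 13, 12, 13, 12, 13, 12],
    [12, 13, 12, 12, 12, 12, 12, 13], [13, 12, 13, 12, 12, 12, 12, 13],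
    [12, 12, 12, 12, 13, 12, 12, 13], [12, 12, 12, 12, 12, 13, 12, 13],
    [13, 12, 12, 13, 12, 13, 12, 13], [13, 12, 12, 12, 12, 12, 12, 12, 12],
    [12, 12, 12, 12, 12, 12, 13, 12, 12], [12, 12, 12, 13, 12, 12, 13, 12, 12],
    [13, 12, 12, 13, 12, 12, 13, 12, 12], [13, 12, 12, 13, 12, 13, 12, 13, 12],
    [12, 12, 13, 12, 12, 12, 12, 12, 13], [13, 12, 12, 12, 12, 13, 12, 12, 13]]

/-- An element of order divisible by 8 fixing 0, 1 and 416. -/
def w8 : List ℕ := [12, 13, 12, 12, 12, 13, 12, 13]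

/-- One block of the closure check. -/
noncomputable def stepBlk (n : ℕ) : Bool :=
  allB (fun i => Nat.ble 14976 i || stepOK i) 10 (Nat.mul 1024 n)

theorem step_blk_0 : stepBlk 0 = true := by decide +kernel

theorem step_blk_1 : stepBlk 1 = true := by decide +kernel

theorem step_blk_2 : stepBlk 2 = true := by decide +kernel

theorem step_blk_3 : stepBlk 3 = true := by decide +kernel

theorem step_blk_4 : stepBlk 4 = true := by decide +kernel

theorem step_blk_5 : stepBlk 5 = true := by decide +kernel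

theorem step_blk_6 : stepBlk 6 = true := by decide +kernel

theorem step_blk_7 : stepBlk 7 = true := by decide +kernel

theorem step_blk_8 : stepBlk 8 = true := by decide +kernel

theorem step_blk_9 : stepBlk 9 = true := by decide +kernel

theorem step_blk_10 : stepBlk 10 = true := by decide +kernel

theorem step_blk_11 : stepBlk 11 = true := by decide +kernel

theorem step_blk_12 : stepBlk 12 = true := by decide +kernel

theorem step_blk_13 : stepBlk 13 = true := by decide +kernel

theorem step_blk_14 : stepBlk 14 = true := by decide +kernel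

theorem step_table {i : ℕ} (hi : i < 14976) : stepOK i = true := by
  have key : stepBlk (i / 1024) = true := by
    have : i / 1024 < 15 := by omega
    interval_cases i / 1024
    exacts [step_blk_0, step_blk_1, step_blk_2, step_blk_3, step_blk_4, step_blk_5, step_blk_6, step_blk_7, step_blk_8, step_blk_9, step_blk_10, step_blk_11, step_blk_12, step_blk_13, step_blk_14]
  have h : (Nat.ble 14976 i || stepOK i) = true :=
    allB_spec key i (show 1024 * (i / 1024) ≤ i by omega) (show i < 1024 * (i / 1024) + 2 ^ 10 by omega)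
  rw [Bool.or_eq_true] at h
  exact h.resolve_left fun e => absurd (Nat.le_of_ble_eq_true e) (not_le.2 hi)

/-- One block of the reachability check. -/
noncomputable def parBlk (n : ℕ) : Bool :=
  allB (fun i => Nat.ble 14976 i || parOK i) 11 (Nat.mul 2048 n)

theorem par_blk_0 : parBlk 0 = true := by decide +kernel

theorem par_blk_1 : parBlk 1 = true := by decide +kernel

theorem par_blk_2 : parBlk 2 = true := by decide +kernel

theorem par_blk_3 : parBlk 3 = true := by decide +kernel

theorem par_blk_4 : parBlk 4 = true := by decide +kernel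

theorem par_blk_5 : parBlk 5 = true := by decide +kernel

theorem par_blk_6 : parBlk 6 = true := by decide +kernel

theorem par_blk_7 : parBlk 7 = true := by decide +kernel

theorem par_table {i : ℕ} (hi : i < 14976) : parOK i = true := by
  have key : parBlk (i / 2048) = true := by
    have : i / 2048 < 8 := by omega
    interval_cases i / 2048
    exacts [par_blk_0, par_blk_1, par_blk_2, par_blk_3, par_blk_4, par_blk_5, par_blk_6, par_blk_7]
  have h : (Nat.ble 14976 i || parOK i) = true :=
    allB_spec key i (show 2048 * (i / 2048) ≤ i by omega) (show i < 2048 * (i / 2048) + 2 ^ 11 by omega)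
  rw [Bool.or_eq_true] at h
  exact h.resolve_left fun e => absurd (Nat.le_of_ble_eq_true e) (not_le.2 hi)

theorem rep_letters : Dat.repWords.length = 102 ∧ ∀ w ∈ Dat.repWords, ∀ k ∈ w, k < 6 := by
  decide +kernel

theorem orb_check :
    orbW.length = 78 ∧ ∀ w ∈ orbW, ∀ k ∈ w, k = 12 ∨ k = 13 := by
  decide +kernel

theorem orb_nodup : (orbW.map fun w => ap w 416).Nodup := by decide +kernel

theorem kr_gens : tget 12 1 = 1 ∧ tget 13 1 = 1 ∧ tget 8 1 = 1 ∧ tget 9 1 = 1 ∧ tget 8 416 = 416 ∧
    tget 9 416 = 416 := by decide +kernel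

theorem w8_check : ap w8 416 = 416 ∧ ap (w8 ++ w8 ++ w8 ++ w8) 2 ≠ 2 ∧
    ap (w8 ++ w8 ++ w8 ++ w8 ++ w8 ++ w8 ++ w8 ++ w8) 2 = 2 := by decide +kernel

/-- The check of the relations of `P0` at one point. -/
noncomputable def p0OK (y : ℕ) : Bool :=
  Nat.beq (tget 8 (tget 9 y)) (tget 9 (tget 8 y)) &&
    (Nat.beq (ap [8, 8, 8, 8, 8] y) y && Nat.beq (ap [9, 9, 9, 9, 9] y) y)

theorem p0_half_0 : allB (fun y => Nat.ble 4060 y || p0OK y) 11 0 = true := by decide +kernel

theorem p0_half_1 : allB (fun y => Nat.ble 4060 y || p0OK y) 11 2048 = true := by decide +kernel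

theorem p0_check (y : ℕ) (hy : y < 4060) : p0OK y = true := by
  have h : (Nat.ble 4060 y || p0OK y) = true := by
    rcases Nat.lt_or_ge y 2048 with c | c
    · exact allB_spec p0_half_0 y (Nat.zero_le _) (by norm_num; omega)
    · exact allB_spec p0_half_1 y c (by norm_num; omega)
  rw [Bool.or_eq_true] at h
  exact h.resolve_left fun e => absurd (Nat.le_of_ble_eq_true e) (not_le.2 hy)

theorem p0_indep : (List.range 5).all (fun a => !Nat.beq (ap (List.replicate a 8) 2) (tget 9 2)) = true := by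
  decide +kernel

theorem p0_moves : tget 8 2 ≠ 2 ∧ tget 9 2 ≠ 2 := by decide +kernel

theorem set_zero : ptE (setE 0) 0 = 1 ∧ ptE (setE 0) 1 = 416 ∧ ptE (setE 0) 2 = 1914 ∧
    ptE (setE 0) 3 = 2279 ∧ tget 8 1914 = 1914 ∧ tget 9 1914 = 1914 ∧ tget 8 2279 = 2279 ∧
    tget 9 2279 = 2279 := by decide +kernel

theorem inE_iff {e x : ℕ} : inE e x = true ↔
    x ∈ ({ptE e 0, ptE e 1, ptE e 2, ptE e 3} : Finset ℕ) := by
  simp only [inE, Bool.or_eq_true, Finset.mem_insert, Finset.mem_singleton]
  constructor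
  · rintro (h | h | h | h) <;> have := Nat.eq_of_beq_eq_true h <;> tauto
  · rintro (h | h | h | h) <;> subst h
    exacts [Or.inl (Nat.beq_refl _), Or.inr (Or.inl (Nat.beq_refl _)),
      Or.inr (Or.inr (Or.inl (Nat.beq_refl _))), Or.inr (Or.inr (Or.inr (Nat.beq_refl _)))]

/-- A permutation sends a packed set into another. -/
def Maps (g : Equiv.Perm (Fin 4060)) (e e' : ℕ) : Prop :=
  ∀ x : Fin 4060, inE e x = true → inE e' (g x) = true

theorem Maps.trans {g g' : Equiv.Perm (Fin 4060)} {a b c : ℕ} (h : Maps g a b) (h' : Maps g' b c) :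
    Maps (g' * g) a c := fun x hx => h' _ (h x hx)

theorem maps_one (a : ℕ) : Maps 1 a a := fun _ hx => hx

theorem maps_of_mapE {g : Equiv.Perm (Fin 4060)} {f : ℕ → ℕ} {e e' : ℕ}
    (h : mapE f e e' = true) (hg : ∀ x : Fin 4060, (g x : ℕ) = f x) : Maps g e e' := by
  intro x hx
  simp only [mapE, Bool.and_eq_true] at h
  obtain ⟨h0, h1, h2, h3⟩ := h
  rw [inE_iff] at hx
  simp only [Finset.mem_insert, Finset.mem_singleton] at hx
  rw [hg]
  rcases hx with hx | hx | hx | hx <;> rw [hx] <;> assumption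

/-- Every element of the closure permutes the sets of the table. -/
theorem maps_table {g : Equiv.Perm (Fin 4060)}
    (hg : g ∈ Subgroup.closure {g : Equiv.Perm (Fin 4060) | ∃ k < 4, g = el k}) :
    ∀ i < 14976, ∃ j < 14976, Maps g (setE i) (setE j) := by
  rw [← Subgroup.mem_toSubmonoid, Subgroup.closure_toSubmonoid_of_finite] at hg
  induction hg using Submonoid.closure_induction with
  | mem g hg =>
    obtain ⟨k, hk, rfl⟩ := hg
    intro i hi
    have h := step_table hi
    simp only [stepOK, Bool.and_eq_true] at h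
    have key : ∀ k < 4, stepK i k = true := by
      intro k hk
      interval_cases k
      exacts [h.1, h.2.1, h.2.2.1, h.2.2.2]
    have hkk := key k hk
    simp only [stepK, Bool.and_eq_true] at hkk
    exact ⟨_, Nat.le_of_ble_eq_true hkk.1, maps_of_mapE hkk.2 fun x => el_apply (by omega) x⟩
  | one => exact fun i hi => ⟨i, hi, maps_one _⟩
  | mul a b _ _ ha hb =>
    intro i hi
    obtain ⟨j, hj, hbj⟩ := hb i hi
    obtain ⟨l, hl, hal⟩ := ha j hj
    exact ⟨l, hl, hbj.trans hal⟩

/-- Every set of the table is an image of the first one. -/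
theorem reach : ∀ i < 14976, ∃ j < Dat.repWords.length, ∃ h ∈ Subgroup.closure {el 6, el 7},
    Maps (h * wEl (Dat.repWords.getD j [])) (setE 0) (setE i) := by
  intro i
  induction i using Nat.strong_induction_on with
  | _ i ih =>
    intro hi
    have hc := par_table hi
    simp only [parOK] at hc
    set c := Dat.parT.get 32 i with hcdef
    cases hb : Nat.beq (Nat.mod c 4) 2 with
    | true =>
      rw [hb, cond_true, Bool.and_eq_true] at hc
      have hj : Nat.div c 4 < Dat.repWords.length := by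
        rw [rep_letters.1]; exact Nat.le_of_ble_eq_true hc.1
      refine ⟨_, hj, 1, one_mem _, ?_⟩
      rw [one_mul]
      refine maps_of_mapE hc.2 fun x => wEl_apply _ (fun k hk => ?_) x
      rw [List.getD_eq_getElem _ _ hj] at hk
      exact (rep_letters.2 _ (List.getElem_mem hj) k hk).trans (by norm_num)
    | false =>
      rw [hb, cond_false, Bool.and_eq_true, Bool.and_eq_true] at hc
      have hb2 : Nat.mod c 4 < 2 := Nat.le_of_ble_eq_true hc.1
      have hp : Nat.div c 4 < i := Nat.le_of_ble_eq_true hc.2.1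
      obtain ⟨j, hj, h, hh, hm⟩ := ih _ hp (hp.trans hi)
      refine ⟨j, hj, el (6 + Nat.mod c 4) * h, mul_mem (Subgroup.subset_closure ?_) hh, ?_⟩
      · obtain h0 | h1 : Nat.mod c 4 = 0 ∨ Nat.mod c 4 = 1 := by omega
        · rw [h0]; exact Set.mem_insert _ _
        · rw [h1]; exact Set.mem_insert_of_mem _ rfl
      · rw [mul_assoc]
        exact hm.trans (maps_of_mapE hc.2.2 fun x => el_apply (by omega) x)

theorem el8_el9_comm : Commute (el 8) (el 9) := by
  refine Equiv.Perm.ext fun x => Fin.ext ?_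
  have h := p0_check x.1 x.2
  simp only [p0OK, Bool.and_eq_true] at h
  simp only [Equiv.Perm.mul_apply, el_apply (by norm_num : 8 < 14), el_apply (by norm_num : 9 < 14)]
  exact Nat.eq_of_beq_eq_true h.1

theorem el_pow_apply {k : ℕ} (hk : k < 14) (n : ℕ) (x : Fin 4060) :
    ((el k ^ n) x : ℕ) = ap (List.replicate n k) x := by
  rw [← wEl_apply _ (fun a ha => by rw [List.eq_of_mem_replicate ha]; exact hk), wEl,
    List.map_replicate, List.prod_replicate]

theorem el_pow_five : el 8 ^ 5 = 1 ∧ el 9 ^ 5 = 1 := by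
  constructor <;> refine Equiv.Perm.ext fun x => Fin.ext ?_ <;>
    have h := p0_check x.1 x.2 <;>
    simp only [p0OK, Bool.and_eq_true] at h <;>
    rw [el_pow_apply (by norm_num)]
  · exact Nat.eq_of_beq_eq_true h.2.1
  · exact Nat.eq_of_beq_eq_true h.2.2

theorem el8_ne : el 8 ≠ 1 := fun h => p0_moves.1 (by
  have h1 := el_apply (by norm_num : 8 < 14) (⟨2, by norm_num⟩ : Fin 4060)
  rw [h] at h1; exact h1.symm)

theorem el9_ne : el 9 ≠ 1 := fun h => p0_moves.2 (by
  have h1 := el_apply (by norm_num : 9 < 14) (⟨2, by norm_num⟩ : Fin 4060)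
  rw [h] at h1; exact h1.symm)

end Syl

open Syl

/-- The order of `P0`. -/
theorem card_P0 : Nat.card P0 = 25 := by
  haveI : Fact (Nat.Prime 5) := ⟨by norm_num⟩
  have h8 : orderOf (el 8) = 5 := orderOf_eq_prime el_pow_five.1 el8_ne
  have h9 : orderOf (el 9) = 5 := orderOf_eq_prime el_pow_five.2 el9_ne
  have hcomm : ∀ (a : Subgroup.zpowers (el 8)) (b : Subgroup.zpowers (el 9)),
      Commute ((Subgroup.zpowers (el 8)).subtype a) ((Subgroup.zpowers (el 9)).subtype b) := by
    rintro ⟨a, i, rfl⟩ ⟨b, j, rfl⟩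
    exact (el8_el9_comm.zpow_zpow i j)
  let f := MonoidHom.noncommCoprod (Subgroup.zpowers (el 8)).subtype (Subgroup.zpowers (el 9)).subtype hcomm
  have hrange : f.range = P0 := by
    rw [MonoidHom.noncommCoprod_range, Subgroup.range_subtype, Subgroup.range_subtype, P0,
      Subgroup.zpowers_eq_closure, Subgroup.zpowers_eq_closure, ← Subgroup.closure_union]
    rfl
  have hinj : Function.Injective f := by
    rw [← MonoidHom.ker_eq_bot_iff, Subgroup.eq_bot_iff_forall]
    rintro ⟨⟨a, ha⟩, ⟨b, hb⟩⟩ h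
    change a * b = 1 at h
    have hba : b ∈ Subgroup.zpowers (el 8) := by
      rw [eq_inv_of_mul_eq_one_right h]; exact inv_mem ha
    by_cases hb1 : b = 1
    · subst hb1; rw [mul_one] at h; subst h; rfl
    · exfalso
      have hob : orderOf b = 5 := by
        rcases (Nat.dvd_prime Fact.out).1 (h9 ▸ orderOf_dvd_of_mem_zpowers hb) with e | e
        · exact absurd (orderOf_eq_one_iff.1 e) hb1
        · exact e
      have h9mem : el 9 ∈ Subgroup.zpowers (el 8) := by
        have e : Subgroup.zpowers b = Subgroup.zpowers (el 9) :=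
          Subgroup.eq_of_le_of_card_ge (Subgroup.zpowers_le.2 hb)
            (by rw [Nat.card_zpowers, Nat.card_zpowers, hob, h9])
        exact (Subgroup.zpowers_le.2 hba) (by rw [e]; exact Subgroup.mem_zpowers _)
      obtain ⟨n, hn⟩ := (isOfFinOrder_of_finite (el 8)).mem_zpowers_iff_mem_range_orderOf.1 h9mem |>
        Finset.mem_image.1
      rw [h8, Finset.mem_range] at hn
      have hall := List.all_eq_true.1 p0_indep n (List.mem_range.2 hn.1)
      have e := el_pow_apply (by norm_num : 8 < 14) n (⟨2, by norm_num⟩ : Fin 4060)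
      rw [hn.2, el_apply (by norm_num : 9 < 14)] at e
      change _ = ap (List.replicate n 8) 2 at e
      change (!Nat.beq (ap (List.replicate n 8) 2) (tget 9 2)) = true at hall
      rw [← e] at hall
      simp at hall
  rw [← hrange, ← Nat.card_congr (MonoidHom.ofInjective hinj).toEquiv, Nat.card_prod,
    Nat.card_zpowers, Nat.card_zpowers, h8, h9]

namespace Syl

/-- The four points fixed by `P0`. -/
def D0 : Finset (Fin 4060) :=
  {⟨1, by norm_num⟩, ⟨416, by norm_num⟩, ⟨1914, by norm_num⟩, ⟨2279, by norm_num⟩}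

theorem D0_card : D0.card = 4 := by decide

theorem inE_zero {x : Fin 4060} (hx : x ∈ D0) : inE (setE 0) x = true := by
  obtain ⟨a, b, c, d, -⟩ := set_zero
  rw [inE_iff, a, b, c, d]
  simp only [D0, Finset.mem_insert, Finset.mem_singleton] at hx ⊢
  rcases hx with rfl | rfl | rfl | rfl <;> simp

/-- A permutation sending the first set into a set covers it. -/
theorem exists_of_inE {g : Equiv.Perm (Fin 4060)} {i : ℕ} (hg : Maps g (setE 0) (setE i))
    {y : Fin 4060} (hy : inE (setE i) y = true) : ∃ d ∈ D0, g d = y := by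
  classical
  have hsub : D0.image (fun d => ((g d : Fin 4060) : ℕ)) ⊆
      {ptE (setE i) 0, ptE (setE i) 1, ptE (setE i) 2, ptE (setE i) 3} := by
    intro v hv
    obtain ⟨d, hd, rfl⟩ := Finset.mem_image.1 hv
    exact inE_iff.1 (hg d (inE_zero hd))
  have hcard : (D0.image fun d => ((g d : Fin 4060) : ℕ)).card = 4 := by
    rw [Finset.card_image_of_injective _ fun a b h => g.injective (Fin.ext h), D0_card]
  have he := Finset.eq_of_subset_of_card_le hsub (by rw [hcard]; exact Finset.card_le_four)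
  obtain ⟨d, hd, hdy⟩ := Finset.mem_image.1 (he.symm ▸ inE_iff.1 hy)
  exact ⟨d, hd, Fin.ext hdy⟩

theorem P0_le : P0 ≤ S0 := (Subgroup.closure_le _).2 (by
  rintro x (rfl | rfl) <;> exact el_mem (by norm_num))

theorem P0_fix {p : Equiv.Perm (Fin 4060)} (hp : p ∈ P0) {d : Fin 4060} (hd : d ∈ D0) : p d = d := by
  obtain ⟨-, -, -, -, a, b, c, e⟩ := set_zero
  obtain ⟨-, -, f1, g1, f2, g2⟩ := kr_gens
  have hle : P0 ≤ stabilizer (Equiv.Perm (Fin 4060)) d := by
    refine (Subgroup.closure_le _).2 ?_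
    simp only [D0, Finset.mem_insert, Finset.mem_singleton] at hd
    rintro x (rfl | rfl) <;> refine mem_stabilizer_iff.2 (Fin.ext ?_) <;>
      rw [Equiv.Perm.smul_def, el_apply (by norm_num)] <;>
      rcases hd with rfl | rfl | rfl | rfl <;> assumption
  exact mem_stabilizer_iff.1 (hle hp)

/-- The stabilizer of 0, 1 and 416. -/
noncomputable def L : Subgroup (Equiv.Perm (Fin 4060)) :=
  Kr ⊓ stabilizer (Equiv.Perm (Fin 4060)) (⟨416, by norm_num⟩ : Fin 4060)

theorem P0_le_L : P0 ≤ L := fun p hp =>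
  Subgroup.mem_inf.2 ⟨Subgroup.mem_inf.2 ⟨P0_le hp, mem_stabilizer_iff.2 (P0_fix hp (by simp [D0, rPt]))⟩,
    mem_stabilizer_iff.2 (P0_fix hp (by simp [D0]))⟩

theorem wEl_mem_Kr {w : List ℕ} (hw : ∀ k ∈ w, k = 12 ∨ k = 13) : wEl w ∈ Kr := by
  refine list_prod_mem fun p hp => ?_
  obtain ⟨k, hk, rfl⟩ := List.mem_map.1 hp
  refine Subgroup.mem_inf.2 ⟨el_mem (by rcases hw k hk with rfl | rfl <;> norm_num),
    mem_stabilizer_iff.2 (Fin.ext ?_)⟩
  rw [Equiv.Perm.smul_def, el_apply (by rcases hw k hk with rfl | rfl <;> norm_num)]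
  rcases hw k hk with rfl | rfl
  exacts [kr_gens.1, kr_gens.2.1]

theorem letters_lt {w : List ℕ} (hw : ∀ k ∈ w, k = 12 ∨ k = 13) : ∀ k ∈ w, k < 14 := fun k hk => by
  rcases hw k hk with rfl | rfl <;> norm_num

theorem card_L_le : Nat.card L ≤ 200 := by
  classical
  set q : Fin 4060 := ⟨416, by norm_num⟩ with hq
  have horb : 78 ≤ (orbit Kr q).ncard := by
    have hsub : ∀ v ∈ (orbW.map fun w => ap w 416).toFinset,
        v ∈ ((orbit Kr q).toFinset.image fun x : Fin 4060 => (x : ℕ)) := by
      intro v hv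
      obtain ⟨w, hw, rfl⟩ := List.mem_map.1 (List.mem_toFinset.1 hv)
      have hl := orb_check.2 w hw
      exact Finset.mem_image.2 ⟨wEl w q, Set.mem_toFinset.2 ⟨⟨wEl w, wEl_mem_Kr hl⟩, rfl⟩,
        wEl_apply w (letters_lt hl) q⟩
    have h1 := (Finset.card_le_card hsub).trans Finset.card_image_le
    rw [List.toFinset_card_of_nodup orb_nodup, List.length_map, orb_check.1] at h1
    rwa [Set.ncard_eq_toFinset_card']
  have h : (orbit Kr q).ncard * Nat.card L = 15600 := (card_mul_stab Kr q).trans card_Kr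
  by_contra hlt
  have := Nat.mul_le_mul horb (not_le.1 hlt)
  omega

theorem card_L : Nat.card L = 200 := by
  haveI : Fact (Nat.Prime 2) := ⟨by norm_num⟩
  refine le_antisymm card_L_le (Nat.le_of_dvd Nat.card_pos ?_)
  have hw : ∀ k ∈ w8, k = 12 ∨ k = 13 := by decide
  set g := wEl w8 with hg
  have hap : ∀ (n : ℕ) (x : Fin 4060), ((g ^ n) x : ℕ) = ap (List.replicate n w8).flatten x := by
    intro n x
    rw [← wEl_apply _ (fun k hk => by
      obtain ⟨l, hl, hkl⟩ := List.mem_flatten.1 hk
      rw [List.eq_of_mem_replicate hl] at hkl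
      exact letters_lt hw k hkl)]
    congr 2
    rw [hg, wEl, wEl, List.map_flatten, List.map_replicate, List.prod_flatten, List.map_replicate,
      List.prod_replicate]
  have hgL : g ∈ L := Subgroup.mem_inf.2 ⟨wEl_mem_Kr hw,
    mem_stabilizer_iff.2 (Fin.ext ((wEl_apply w8 (letters_lt hw) _).trans w8_check.1))⟩
  have hper : MulAction.period g (⟨2, by norm_num⟩ : Fin 4060) = 8 := by
    rw [MulAction.period_eq_minimalPeriod]
    refine Function.minimalPeriod_eq_prime_pow (p := 2) (k := 2) (fun h => ?_) ?_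
    · rw [Function.IsPeriodicPt, Function.IsFixedPt, smul_iterate] at h
      exact w8_check.2.1 ((hap 4 ⟨2, by norm_num⟩).symm.trans (congrArg Fin.val h))
    · rw [Function.IsPeriodicPt, Function.IsFixedPt, smul_iterate]
      exact Fin.ext ((hap 8 ⟨2, by norm_num⟩).trans w8_check.2.2)
  have h8 : 8 ∣ Nat.card L :=
    (hper ▸ MulAction.period_dvd_orderOf g _).trans (L.orderOf_dvd_natCard hgL)
  have h25 : 25 ∣ Nat.card L := card_P0 ▸ Subgroup.card_dvd_of_le P0_le_L
  exact (show Nat.Coprime 8 25 by norm_num).mul_dvd_of_dvd_of_dvd h8 h25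

theorem eq_P0_of_le {Q : Subgroup (Equiv.Perm (Fin 4060))} (hQ : Q ≤ L) (hc : Nat.card Q = 25) :
    Q = P0 := by
  haveI : Fact (Nat.Prime 5) := ⟨by norm_num⟩
  haveI : Subsingleton (Sylow 5 L) := by
    rw [← Finite.card_le_one_iff_subsingleton]
    obtain ⟨S⟩ : Nonempty (Sylow 5 L) := inferInstance
    have h1 := S.card_dvd_index
    have h2 := card_sylow_modEq_one 5 L
    have h3 : (S : Subgroup L).index = 8 := by
      have h := (S : Subgroup L).card_mul_index
      rw [S.card_eq_multiplicity, card_L, show (200 : ℕ) = 5 ^ 2 * 2 ^ 3 by norm_num,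
        Nat.factorization_mul (by norm_num) (by norm_num), Finsupp.add_apply,
        (by norm_num : Nat.Prime 5).factorization_pow, (by norm_num : Nat.Prime 2).factorization_pow,
        Finsupp.single_eq_same, Finsupp.single_eq_of_ne (by norm_num)] at h
      omega
    rw [h3] at h1
    have h4 := Nat.le_of_dvd (by norm_num) h1
    rw [Nat.ModEq] at h2
    interval_cases hn : Nat.card (Sylow 5 L) <;> omega
  have hfac : (Nat.card L).factorization 5 = 2 := by
    rw [card_L, show (200 : ℕ) = 5 ^ 2 * 2 ^ 3 by norm_num,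
      Nat.factorization_mul (by norm_num) (by norm_num), Finsupp.add_apply,
      (by norm_num : Nat.Prime 5).factorization_pow, (by norm_num : Nat.Prime 2).factorization_pow,
      Finsupp.single_eq_same, Finsupp.single_eq_of_ne (by norm_num)]
    norm_num
  have mk : ∀ R : Subgroup (Equiv.Perm (Fin 4060)), R ≤ L → Nat.card R = 25 →
      Nat.card (R.subgroupOf L) = 5 ^ (Nat.card L).factorization 5 := fun R hR hRc => by
    rw [hfac, Nat.card_congr (Subgroup.subgroupOfEquivOfLe hR).toEquiv, hRc]; norm_num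
  have he := congrArg (fun S : Sylow 5 L => (S : Subgroup L))
    (Subsingleton.elim (Sylow.ofCard _ (mk Q hQ hc)) (Sylow.ofCard _ (mk P0 P0_le_L card_P0)))
  simp only [Sylow.coe_ofCard] at he
  have := congrArg (fun M : Subgroup L => M.map L.subtype) he
  simpa only [Subgroup.map_subgroupOf_eq_of_le hQ, Subgroup.map_subgroupOf_eq_of_le P0_le_L] using this

theorem exists_conj {P : Subgroup (Equiv.Perm (Fin 4060))} (hP : P ≤ S0) (hc : Nat.card P = 25) :
    ∃ g ∈ S0, ∀ p ∈ P0, g * p * g⁻¹ ∈ P := by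
  haveI : Fact (Nat.Prime 5) := ⟨by norm_num⟩
  have hfac : (Nat.card S0).factorization 5 = 2 := by
    rw [card_S0, show (35942400 : ℕ) = 5 ^ 2 * 1437696 by norm_num,
      Nat.factorization_mul (by norm_num) (by norm_num), Finsupp.add_apply,
      (by norm_num : Nat.Prime 5).factorization_pow, Finsupp.single_eq_same,
      Nat.factorization_eq_zero_of_not_dvd (by norm_num)]
  have mk : ∀ R : Subgroup (Equiv.Perm (Fin 4060)), R ≤ S0 → Nat.card R = 25 →
      Nat.card (R.subgroupOf S0) = 5 ^ (Nat.card S0).factorization 5 := fun R hR hRc => by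
    rw [hfac, Nat.card_congr (Subgroup.subgroupOfEquivOfLe hR).toEquiv, hRc]; norm_num
  obtain ⟨g, hg⟩ := MulAction.exists_smul_eq S0 (Sylow.ofCard _ (mk P0 P0_le card_P0))
    (Sylow.ofCard _ (mk P hP hc))
  refine ⟨g, g.2, fun p hp => ?_⟩
  have hgp : MulAut.conj g • (⟨p, P0_le hp⟩ : S0) ∈
      MulAut.conj g • (P0.subgroupOf S0) := Subgroup.smul_mem_pointwise_smul _ _ _ hp
  have e := congrArg (fun S : Sylow 5 S0 => (S : Subgroup S0)) hg
  simp only [Sylow.coe_subgroup_smul, Sylow.coe_ofCard] at e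
  rw [e] at hgp
  exact hgp

end Syl

/-- If four elements generate, a subgroup of order 25 of the point stabilizer is conjugate to `P0` by a product of an element of
`⟨el 6, el 7⟩` and a representative. -/
theorem five_subgroup_of_le (hgen : S0 ≤ Subgroup.closure {g | ∃ k < 4, g = el k}) (P : Subgroup (Equiv.Perm (Fin 4060))) (hP : P ≤ S0) (hc : Nat.card P = 25) :
    ∃ j < Dat.repWords.length, ∃ h ∈ Subgroup.closure ({el 6, el 7} : Set (Equiv.Perm (Fin 4060))),
      P = P0.map (MulAut.conj (h * wEl (Dat.repWords.getD j []))).toMonoidHom := by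
  obtain ⟨g, hgS, hg⟩ := exists_conj hP hc
  obtain ⟨i, hi, hgi⟩ := maps_table (hgen hgS) 0 (by norm_num)
  obtain ⟨j, hj, h, hh, hm⟩ := reach i hi
  refine ⟨j, hj, h, hh, ?_⟩
  set a := h * wEl (Dat.repWords.getD j []) with ha
  have hPeq : P = P0.map (MulAut.conj g).toMonoidHom := by
    refine (Subgroup.eq_of_le_of_card_ge ?_ ?_).symm
    · rintro x ⟨p, hp, rfl⟩; exact hg p hp
    · rw [hc, Subgroup.card_map_of_injective (MulAut.conj g).injective, card_P0]
  have hfix : ∀ x ∈ P, ∀ y : Fin 4060, inE (setE i) y = true → x y = y := by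
    intro x hx y hy
    rw [hPeq] at hx
    obtain ⟨p, hp, rfl⟩ := hx
    obtain ⟨d, hd, rfl⟩ := exists_of_inE hgi hy
    show (g * p * g⁻¹) (g d) = g d
    simp [Equiv.Perm.mul_apply, P0_fix hp hd]
  have haS : a ∈ S0 := by
    refine mul_mem ((Subgroup.closure_le _).2 (by rintro z (rfl | rfl) <;> exact el_mem (by norm_num)) hh)
      (wEl_mem fun k hk => ?_)
    rw [List.getD_eq_getElem _ _ hj] at hk
    exact (rep_letters.2 _ (List.getElem_mem hj) k hk).trans (by norm_num)
  have hQ : P.map (MulAut.conj a⁻¹).toMonoidHom = P0 := by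
    refine eq_P0_of_le ?_ (by rw [Subgroup.card_map_of_injective (MulAut.conj a⁻¹).injective, hc])
    rintro _ ⟨x, hx, rfl⟩
    have hd : ∀ d ∈ D0, (a⁻¹ * x * a) d = d := fun d hd => by
      simp [Equiv.Perm.mul_apply, hfix x hx _ (hm d (inE_zero hd))]
    simp only [MulEquiv.coe_toMonoidHom, MulAut.conj_apply, inv_inv]
    refine Subgroup.mem_inf.2 ⟨Subgroup.mem_inf.2
      ⟨mul_mem (mul_mem (inv_mem haS) (hP hx)) haS, mem_stabilizer_iff.2 (hd _ (by simp [D0, rPt]))⟩,
      mem_stabilizer_iff.2 (hd _ (by simp [D0]))⟩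
  rw [← hQ, Subgroup.map_map]
  conv_lhs => rw [← Subgroup.map_id P]
  congr 1
  ext x
  simp [MulAut.conj_apply, mul_assoc]

end Cfsg.Agent.RuRank
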