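import Cfsg.Agent.RuRank.Conj
import Cfsg.Agent.RuRank.Conn
import Cfsg.Agent.RuRank.Syl

/-!
A subgroup of index 2304 of the point stabilizer fixes a point of the class of size 2304.
-/

set_option autoImplicit false
set_option maxRecDepth 100000

namespace Cfsg.Agent.RuRank

open Cfsg.Agent.CosetCert MulAction

set_option maxHeartbeats 1000000

/-- One point of the two relations of the elements 6 and 7. -/
noncomputable def relOK (i : ℕ) : Bool :=
  Nat.beq (ap (List.replicate 13 6) i) i

theorem rel_table : allB (fun i => Nat.ble 4060 i || relOK i) 12 0 = true := by decide +kernel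

/-- One point of the second relation. -/
noncomputable def norOK (i : ℕ) : Bool := Nat.beq (ap [7, 6] i) (ap (List.replicate 11 6 ++ [7]) i)

theorem nor_table : allB (fun i => Nat.ble 4060 i || norOK i) 12 0 = true := by decide +kernel

theorem x_moves : Nat.beq (tget 6 2305) 2305 = false := by decide +kernel

theorem wEl_replicate (n k : ℕ) : wEl (List.replicate n k) = el k ^ n := by simp [wEl]

theorem x_rels : el 6 ^ 13 = 1 ∧ el 7 * el 6 = el 6 ^ 11 * el 7 := by
  constructor
  · refine Equiv.ext fun i => Fin.ext ?_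
    have h := SporOut.Ru.of_allB rel_table i.val i.2
    rw [← wEl_replicate, wEl_apply _ (fun x hx => by rw [List.eq_of_mem_replicate hx]; norm_num)]
    exact Nat.eq_of_beq_eq_true h
  · refine Equiv.ext fun i => Fin.ext ?_
    have h := SporOut.Ru.of_allB nor_table i.val i.2
    have e1 : el 7 * el 6 = wEl [7, 6] := by simp [wEl]
    have e2 : el 6 ^ 11 * el 7 = wEl (List.replicate 11 6 ++ [7]) := by
      rw [← wEl_replicate]
      simp only [wEl, List.map_append, List.prod_append, List.map_cons, List.map_nil, List.prod_cons,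
        List.prod_nil, mul_one]
    rw [e1, e2, wEl_apply _ (by decide), wEl_apply _ (by decide)]
    exact Nat.eq_of_beq_eq_true h

theorem card_x : Nat.card (Subgroup.zpowers (el 6)) = 13 := by
  rw [Nat.card_zpowers]
  haveI : Fact (Nat.Prime 13) := ⟨by norm_num⟩
  refine orderOf_eq_prime x_rels.1 fun h => ?_
  have h' := el_apply (show 6 < 14 by norm_num) qPt
  rw [h] at h'
  have := x_moves
  rw [show tget 6 2305 = 2305 from h'.symm] at this
  exact absurd this (by decide)

theorem conj_x_mem {h : Equiv.Perm (Fin 4060)} (hh : h ∈ Subgroup.closure {el 6, el 7}) :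
    h * el 6 * h⁻¹ ∈ Subgroup.zpowers (el 6) := by
  suffices hs : Subgroup.closure {el 6, el 7} ≤ Subgroup.normalizer (Subgroup.zpowers (el 6) : Set _) by
    exact (Subgroup.mem_normalizer_iff.1 (hs hh) _).1 (Subgroup.mem_zpowers _)
  rw [Subgroup.closure_le]
  rintro g (rfl | rfl)
  · exact Subgroup.le_normalizer (Subgroup.mem_zpowers _)
  · have hle : cj (el 7) (Subgroup.zpowers (el 6)) ≤ Subgroup.zpowers (el 6) := by
      rw [cj, MonoidHom.map_zpowers, Subgroup.zpowers_le]
      show el 7 * el 6 * (el 7)⁻¹ ∈ _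
      rw [x_rels.2, mul_inv_cancel_right]
      exact pow_mem (Subgroup.mem_zpowers _) _
    have heq := Subgroup.eq_of_le_of_card_ge hle (card_cj _ _).ge
    rw [SetLike.mem_coe, Subgroup.mem_normalizer_iff]
    intro y
    conv_rhs => rw [← heq, mem_cj]
    simp [mul_assoc]

/-- One point of the relations of the elements 8 and 9. -/
noncomputable def fiveOK (i : ℕ) : Bool :=
  Nat.beq (ap [8, 8, 8, 8, 8] i) i && Nat.beq (ap [9, 9, 9, 9, 9] i) i

theorem five_table : allB (fun i => Nat.ble 4060 i || fiveOK i) 12 0 = true := by decide +kernel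

theorem pow_five_el : el 8 ^ 5 = 1 ∧ el 9 ^ 5 = 1 := by
  constructor <;> refine Equiv.ext fun i => Fin.ext ?_ <;>
    [rw [← wEl_replicate 5 8]; rw [← wEl_replicate 5 9]] <;>
    rw [wEl_apply _ (by decide)] <;>
    have h := SporOut.Ru.of_allB five_table i.val i.2 <;>
    rw [fiveOK, Bool.and_eq_true] at h <;>
    [exact Nat.eq_of_beq_eq_true h.1; exact Nat.eq_of_beq_eq_true h.2]

theorem fix_table : Nat.beq (tget 6 1) 1 && Nat.beq (tget 8 1) 1 && Nat.beq (tget 9 1) 1 = true := by
  decide +kernel

theorem fix_rPt : ({el 6, el 8, el 9} : Set (Equiv.Perm (Fin 4060))) ⊆ stabilizer (Equiv.Perm (Fin 4060)) rPt := by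
  obtain ⟨⟨h6, h8⟩, h9⟩ := (by simpa only [Bool.and_eq_true] using fix_table : (_ ∧ _) ∧ _)
  rintro k (rfl | rfl | rfl)
  · exact Fin.ext ((el_apply (by norm_num) rPt).trans (Nat.eq_of_beq_eq_true h6))
  · exact Fin.ext ((el_apply (by norm_num) rPt).trans (Nat.eq_of_beq_eq_true h8))
  · exact Fin.ext ((el_apply (by norm_num) rPt).trans (Nat.eq_of_beq_eq_true h9))

theorem repWord_zero : Dat.repWords.getD 0 [] = [] := by decide +kernel

/-- A subgroup of index at most four generated by elements of prime order above four is normal. -/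
theorem normal_of_small {G : Type*} [Group G] [Finite G] (M : Subgroup G) (S : Set G)
    (hM : M = Subgroup.closure S) (hi : M.index ≤ 4) (hS : ∀ y ∈ S, ∃ p, p.Prime ∧ 4 < p ∧ y ^ p = 1) :
    M.Normal := by
  have hle : M ≤ M.normalCore := by
    conv_lhs => rw [hM]
    rw [Subgroup.closure_le]
    intro y hy
    obtain ⟨p, hp, h4, hyp⟩ := hS y hy
    rw [SetLike.mem_coe, Subgroup.normalCore_eq_ker, MonoidHom.mem_ker]
    by_contra hne
    have := Fact.mk hp
    have h1 : (MulAction.toPermHom G (G ⧸ M) y) ^ p = 1 := by rw [← map_pow, hyp, map_one]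
    have hd : p ∣ Nat.card (Equiv.Perm (G ⧸ M)) := orderOf_eq_prime h1 hne ▸ orderOf_dvd_natCard _
    rw [Nat.card_perm, hp.dvd_factorial] at hd
    have : Nat.card (G ⧸ M) ≤ 4 := hi
    omega
  rw [le_antisymm hle (Subgroup.normalCore_le M)]
  infer_instance

/-- The subgroups containing the element of order 13 that fix a point. -/
theorem index_2304_of_x (hgen : S0 ≤ Subgroup.closure {g | ∃ k < 4, g = el k}) (K : Subgroup (Equiv.Perm (Fin 4060))) (hK : K ≤ S0) (hc : Nat.card K = 15600)
    (hx : el 6 ∈ K) : ∃ r : Fin 4060, cls r.val = 2 ∧ K = S0 ⊓ stabilizer (Equiv.Perm (Fin 4060)) r := by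
  haveI : Fact (Nat.Prime 5) := ⟨by norm_num⟩
  haveI : Finite K := inferInstance
  obtain ⟨Q, hQ⟩ := Sylow.exists_subgroup_card_pow_prime (G := K) 5 (n := 2) (by rw [hc]; norm_num)
  have hP : Q.map K.subtype ≤ K := Subgroup.map_subtype_le Q
  have cP : Nat.card (Q.map K.subtype) = 25 := by
    rw [Subgroup.card_map_of_injective K.subtype_injective, hQ]
    norm_num
  obtain ⟨j, hj, h, hh, hP'⟩ := five_subgroup_of_le hgen (Q.map K.subtype) (hP.trans hK) cP
  have hh0 : h ∈ S0 := (Subgroup.closure_le S0).2 (by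
    rintro g (rfl | rfl) <;> exact el_mem (by norm_num)) hh
  set K2 := cj h⁻¹ K with hK2def
  have c2 : Nat.card K2 = 15600 := by rw [hK2def, card_cj, hc]
  have hK2 : K2 ≤ S0 := by rw [hK2def, ← cj_S0 (inv_mem hh0)]; exact cj_mono hK
  have hx2 : el 6 ∈ K2 := by
    rw [hK2def, mem_cj, inv_inv]
    have := conj_x_mem hh
    obtain ⟨z, hz⟩ := this
    rw [← hz]
    exact zpow_mem hx z
  set g := wEl (Dat.repWords.getD j []) with hgdef
  have hg2 : ∀ k ∈ ({el 8, el 9} : Set _), g * k * g⁻¹ ∈ K2 := by
    intro k hk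
    rw [hK2def, mem_cj, inv_inv]
    refine hP ?_
    rw [hP']
    refine ⟨k, Subgroup.subset_closure hk, ?_⟩
    simp [hgdef, mul_assoc]
  by_cases hj0 : j = 0
  · subst hj0
    rw [repWord_zero] at hgdef
    have hg1 : g = 1 := by rw [hgdef]; rfl
    set M := Subgroup.closure ({el 6, el 8, el 9} : Set (Equiv.Perm (Fin 4060))) with hMdef
    have hMK : M ≤ K2 := by
      rw [hMdef, Subgroup.closure_le]
      rintro k (rfl | rfl | rfl)
      · exact hx2
      · simpa [hg1] using hg2 (el 8) (Or.inl rfl)
      · simpa [hg1] using hg2 (el 9) (Or.inr rfl)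
    -- the index is at most four, so the generators act trivially on the cosets
    have hdiv : 3900 ∣ Nat.card M := good_dvd
    have hidx : (M.subgroupOf K2).index ≤ 4 := by
      have h1 := (M.subgroupOf K2).card_mul_index
      rw [Nat.card_congr (Subgroup.subgroupOfEquivOfLe hMK).toEquiv, c2] at h1
      have : 3900 ≤ Nat.card M := Nat.le_of_dvd Nat.card_pos hdiv
      nlinarith
    have hnorm : ∀ k ∈ K2, ∀ m ∈ M, k⁻¹ * m * k ∈ M := by
      have hcl : M.subgroupOf K2 = Subgroup.closure
          ((Subtype.val : K2 → _) ⁻¹' ({el 6, el 8, el 9} : Set (Equiv.Perm (Fin 4060)))) := by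
        apply Subgroup.map_injective K2.subtype_injective
        rw [Subgroup.subgroupOf_map_subtype, inf_eq_left.2 hMK, MonoidHom.map_closure, hMdef]
        congr 1
        rw [Subgroup.coe_subtype, Set.image_preimage_eq_inter_range, Subtype.range_coe]
        refine (Set.inter_eq_left.2 fun k hk => hMK ?_).symm
        exact Subgroup.subset_closure hk
      have hn : (M.subgroupOf K2).Normal := by
        refine normal_of_small _ _ hcl hidx fun y hy => ?_
        rcases hy with hy | hy | hy
        · refine ⟨13, by norm_num, by norm_num, Subtype.ext ?_⟩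
          rw [SubmonoidClass.coe_pow, hy, x_rels.1, OneMemClass.coe_one]
        · refine ⟨5, by norm_num, by norm_num, Subtype.ext ?_⟩
          rw [SubmonoidClass.coe_pow, hy, pow_five_el.1, OneMemClass.coe_one]
        · refine ⟨5, by norm_num, by norm_num, Subtype.ext ?_⟩
          rw [SubmonoidClass.coe_pow, hy, pow_five_el.2, OneMemClass.coe_one]
      intro k hk m hm
      have h := hn.conj_mem ⟨m, hMK hm⟩ hm ⟨k, hk⟩⁻¹
      rw [inv_inv, Subgroup.mem_subgroupOf] at h
      exact h
    have hKr : K2 = Kr := by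
      refine Subgroup.eq_of_le_of_card_ge (fun k hk => ?_) (by rw [card_Kr, c2])
      refine Subgroup.mem_inf.2 ⟨hK2 hk, mem_stabilizer_iff.2 ?_⟩
      have hfix : ∀ m ∈ ({el 6, el 8, el 9} : Set (Equiv.Perm (Fin 4060))), m (k rPt) = k rPt := by
        intro m hm
        have h1 := hnorm k hk m (Subgroup.subset_closure hm)
        have h2 : ∀ z ∈ M, z rPt = rPt := by
          have hMr : M ≤ stabilizer (Equiv.Perm (Fin 4060)) rPt := by
            rw [hMdef, Subgroup.closure_le]
            exact fix_rPt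
          exact fun z hz => hMr hz
        have h3 := h2 _ h1
        simp only [Equiv.Perm.mul_apply, Equiv.Perm.inv_def, Equiv.symm_apply_eq] at h3
        exact h3
      exact good_fix (k rPt) (by rw [cls_smul (hK2 hk), cls_r]) (hfix _ (Or.inl rfl))
        (hfix _ (Or.inr (Or.inl rfl))) (hfix _ (Or.inr (Or.inr rfl)))
    refine ⟨h rPt, by rw [cls_smul hh0, cls_r], ?_⟩
    have hb := congrArg (cj h) (hK2def.symm.trans hKr)
    rw [cj_cj, mul_inv_cancel, cj_one] at hb
    rw [hb]
    exact cj_stab hh0 rPt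
  · exfalso
    set M := Subgroup.closure ({el 6, g * el 8 * g⁻¹} : Set (Equiv.Perm (Fin 4060)))
    have hMK : M ≤ K2 := by
      rw [Subgroup.closure_le]
      rintro k (rfl | rfl)
      · exact hx2
      · exact hg2 (el 8) (Or.inl rfl)
    have hd : 1755 ∣ Nat.card M := conn_rep j (Nat.pos_of_ne_zero hj0) hj M (hMK.trans hK2)
      (Subgroup.subset_closure (Or.inl rfl)) (Subgroup.subset_closure (Or.inr rfl))
    have := hd.trans ((Subgroup.card_dvd_of_le hMK).trans c2.dvd)
    norm_num at this

/-- A subgroup of index 2304 fixes a point. -/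
theorem index_2304 (hgen : S0 ≤ Subgroup.closure {g | ∃ k < 4, g = el k}) (K : Subgroup (Equiv.Perm (Fin 4060))) (hK : K ≤ S0) (hc : Nat.card K = 15600) :
    ∃ r : Fin 4060, cls r.val = 2 ∧ K = S0 ⊓ stabilizer (Equiv.Perm (Fin 4060)) r := by
  haveI : Fact (Nat.Prime 13) := ⟨by norm_num⟩
  haveI : Finite K := inferInstance
  obtain ⟨z, hz⟩ := exists_prime_orderOf_dvd_card' (G := K) 13 (by rw [hc]; norm_num)
  have hle : Subgroup.zpowers (z : Equiv.Perm (Fin 4060)) ≤ K := Subgroup.zpowers_le.2 z.2
  have cz : Nat.card (Subgroup.zpowers (z : Equiv.Perm (Fin 4060))) = 13 ^ 1 := by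
    rw [Nat.card_zpowers, orderOf_submonoid, pow_one, hz]
  obtain ⟨g, hg, e⟩ := conj_of_card (hle.trans hK) (Subgroup.zpowers_le.2 (el_mem (by norm_num : 6 < 14)))
    cz (card_x.trans (pow_one 13).symm) (by
      rw [show (35942400 : ℕ) = 13 * 2764800 by norm_num, Nat.factorization_mul (by norm_num) (by norm_num),
        Finsupp.add_apply, Nat.Prime.factorization_self (by norm_num),
        Nat.factorization_eq_zero_of_not_dvd (by norm_num)])
  have hx : el 6 ∈ cj g K := by
    have := Subgroup.mem_zpowers (el 6)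
    rw [e] at this
    exact cj_mono hle this
  obtain ⟨r, hr, e'⟩ := index_2304_of_x hgen (cj g K) (by rw [← cj_S0 hg]; exact cj_mono hK)
    (by rw [card_cj, hc]) hx
  refine ⟨g⁻¹ r, by rw [cls_smul (inv_mem hg), hr], ?_⟩
  have hb := congrArg (cj g⁻¹) e'
  rw [cj_cj, inv_mul_cancel, cj_one] at hb
  rw [hb]
  exact cj_stab (inv_mem hg) r

end Cfsg.Agent.RuRank
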