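import Cfsg.Agent.RuRank.Iso
import Cfsg.Agent.RuRank.Glue
import Cfsg.Agent.RuRank.Graph
import Cfsg.Agent.RuRank.Bound
import Cfsg.Agent.RuRank.U1
import Cfsg.Agent.RuRank.U2
import Cfsg.Agent.RuModel.RuSimple
import Cfsg.Prelude.Def_Spor_Ru

/-!
A rank three group on 4060 points with point stabilizer of Ree type is the Rudvalis group.
-/

set_option autoImplicit false
set_option maxRecDepth 100000

namespace Cfsg.Agent.RuRank

open MulAction

theorem RK_le_autG : RK ≤ autG := fun _ hg i j => adj_map hg i j

/-- A group of automorphisms of the graph, transitive and with stabilizer `S0`, is `RK`. -/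
theorem eq_RK (G' : Subgroup (Equiv.Perm (Fin 4060))) (hle : G' ≤ autG)
    (htr : ∀ i, ∃ g ∈ G', g 0 = i) (hst : G' ⊓ stabilizer (Equiv.Perm (Fin 4060)) (0 : Fin 4060) = S0) : G' = RK := by
  set L := G' ⊓ RK with hL
  have hS : S0 ≤ L := le_inf (hst.symm.le.trans inf_le_left) inf_le_left
  have hstL : L ⊓ stabilizer (Equiv.Perm (Fin 4060)) (0 : Fin 4060) = S0 :=
    le_antisymm (inf_le_inf_right _ inf_le_left |>.trans hst.le) (le_inf hS inf_le_right)
  have hcG : Nat.card G' = 4060 * 35942400 := by
    have h := card_mul_stab G' (0 : Fin 4060)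
    rw [hst, card_S0, show orbit G' (0 : Fin 4060) = Set.univ from Set.eq_univ_of_forall fun i => by
      obtain ⟨g, hg, e⟩ := htr i; exact ⟨⟨g, hg⟩, e⟩, Set.ncard_univ, Nat.card_fin] at h
    exact h.symm
  set O := orbit L (0 : Fin 4060) with hO
  have hcL : O.ncard * 35942400 = Nat.card L := by
    have h := card_mul_stab L (0 : Fin 4060)
    rwa [hstL, card_S0] at h
  have hdvd : O.ncard ∣ 4060 := by
    have h1 : Nat.card L ∣ Nat.card G' := Subgroup.card_dvd_of_le inf_le_left
    rw [← hcL, hcG] at h1
    exact Nat.dvd_of_mul_dvd_mul_right (by norm_num) h1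
  by_cases hq : qPt ∈ O
  · have h1 : {i : Fin 4060 | cls i.val = 1} ⊆ O := fun i hi => by
      obtain ⟨g, hg, e⟩ := exists_q hi
      rw [← e]
      exact mem_orbit_of_mem_orbit (⟨g, hS hg⟩ : L) hq
    have h2 : (insert (0 : Fin 4060) {i : Fin 4060 | cls i.val = 1}).ncard ≤ O.ncard :=
      Set.ncard_le_ncard (Set.insert_subset (mem_orbit_self _) h1)
    rw [Set.ncard_insert_of_notMem (by simp [cls_roots.1]), ncard_cls1] at h2
    have h3 : O.ncard = 2030 ∨ O.ncard = 4060 := by
      obtain ⟨k, hk⟩ := hdvd
      have : k ≤ 2 := by nlinarith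
      interval_cases k <;> omega
    have h4 : O.ncard = 4060 := by
      refine h3.resolve_left fun h => ?_
      by_cases hr : rPt ∈ O
      · have h5 : {i : Fin 4060 | cls i.val = 2} ⊆ O := fun i hi => by
          obtain ⟨g, hg, e⟩ := exists_r hi
          rw [← e]
          exact mem_orbit_of_mem_orbit (⟨g, hS hg⟩ : L) hr
        have := Set.ncard_le_ncard h5
        rw [ncard_cls2] at this
        omega
      · have h5 : O ⊆ insert (0 : Fin 4060) {i : Fin 4060 | cls i.val = 1} := fun i hi => by
          rcases (show cls i.val = 0 ∨ cls i.val = 1 ∨ cls i.val = 2 by have := cls_lt i; omega) with c | c | c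
          · exact Or.inl (cls_eq_zero.1 c)
          · exact Or.inr c
          · obtain ⟨g, hg, e⟩ := exists_r c
            exact absurd (by simpa [← e] using mem_orbit_of_mem_orbit (⟨g⁻¹, hS (inv_mem hg)⟩ : L) hi :) hr
        have := Set.ncard_le_ncard h5
        rw [Set.ncard_insert_of_notMem (by simp [cls_roots.1]), ncard_cls1] at this
        omega
    rw [h4] at hcL
    have e1 : L = G' := Subgroup.eq_of_le_of_card_ge inf_le_left (by rw [hcG, ← hcL])
    have e2 : L = RK := Subgroup.eq_of_le_of_card_ge inf_le_right (by rw [card_RK, ← hcL])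
    exact e1.symm.trans e2
  · exfalso
    have hone : O = {0} := by
      refine Set.eq_singleton_iff_unique_mem.2 ⟨mem_orbit_self _, fun i hi => ?_⟩
      rcases (show cls i.val = 0 ∨ cls i.val = 1 ∨ cls i.val = 2 by have := cls_lt i; omega) with c | c | c
      · exact cls_eq_zero.1 c
      · obtain ⟨g, hg, e⟩ := exists_q c
        exact absurd (by simpa [← e] using mem_orbit_of_mem_orbit (⟨g⁻¹, hS (inv_mem hg)⟩ : L) hi :) hq
      · have h5 : (insert (0 : Fin 4060) {j : Fin 4060 | cls j.val = 2}) ⊆ O := by
          refine Set.insert_subset (mem_orbit_self _) fun j hj => ?_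
          obtain ⟨g, hg, e⟩ := exists_r c
          obtain ⟨k, hk, e'⟩ := exists_r hj
          have := mem_orbit_of_mem_orbit (⟨k * g⁻¹, hS (mul_mem hk (inv_mem hg))⟩ : L) hi
          simpa [← e, ← e'] using this
        have h6 := Set.ncard_le_ncard h5
        rw [Set.ncard_insert_of_notMem (by simp [cls_roots.1]), ncard_cls2] at h6
        obtain ⟨k, hk⟩ := hdvd
        have hk1 : k = 1 := by nlinarith
        have hfull : O = Set.univ :=
          Set.eq_of_subset_of_ncard_le (Set.subset_univ _) (by rw [Set.ncard_univ, Nat.card_fin]; subst hk1; omega)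
        exact absurd (hfull ▸ Set.mem_univ _) hq
    rw [hone, Set.ncard_singleton, one_mul] at hcL
    -- the products of elements of the two groups are too many
    have hA : ∀ x : G' × RK, (x.1 : Equiv.Perm (Fin 4060)) * x.2 ∈ autG :=
      fun x => mul_mem (hle x.1.2) (RK_le_autG x.2.2)
    let f : G' × RK → autG := fun x => ⟨_, hA x⟩
    have hfib : ∀ z : autG, Nat.card {x : G' × RK // f x = z} ≤ Nat.card L := by
      intro z
      rcases isEmpty_or_nonempty {x : G' × RK // f x = z} with h | ⟨⟨⟨a, b⟩, hab⟩⟩
      · simp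
      refine Nat.card_le_card_of_injective (fun x => (⟨(a.1)⁻¹ * (x.1.1 : Equiv.Perm (Fin 4060)), Subgroup.mem_inf.2 ⟨?_, ?_⟩⟩ : L)) ?_
      · exact mul_mem (inv_mem a.2) x.1.1.2
      · have h := congrArg Subtype.val (x.2.trans hab.symm)
        have e : (a.1)⁻¹ * (x.1.1 : Equiv.Perm (Fin 4060)) = b.1 * (x.1.2 : Equiv.Perm (Fin 4060))⁻¹ := by
          rw [eq_mul_inv_iff_mul_eq, mul_assoc, show (x.1.1 : Equiv.Perm (Fin 4060)) * x.1.2 = a.1 * b.1 from h,
            inv_mul_cancel_left]
        rw [e]
        exact mul_mem b.2 (inv_mem x.1.2.2)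
      · intro x y h
        have h1 : (x.1.1 : Equiv.Perm (Fin 4060)) = y.1.1 := mul_left_cancel (congrArg Subtype.val h)
        have h2 := congrArg Subtype.val (x.2.trans y.2.symm)
        have h3 : (x.1.2 : Equiv.Perm (Fin 4060)) = y.1.2 := by
          have h2' : (x.1.1 : Equiv.Perm (Fin 4060)) * x.1.2 = y.1.1 * y.1.2 := h2
          rw [h1] at h2'
          exact mul_left_cancel h2'
        exact Subtype.ext (Prod.ext (Subtype.ext h1) (Subtype.ext h3))
    classical
    haveI : Fintype autG := Fintype.ofFinite _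
    have hsum : Nat.card (G' × RK) ≤ Nat.card autG * Nat.card L := by
      rw [← Nat.card_congr (Equiv.sigmaFiberEquiv f), Nat.card_sigma, Nat.card_eq_fintype_card]
      exact (Finset.sum_le_sum fun z _ => hfib z).trans (by simp)
    have hbound : Nat.card autG ≤ 4060 * Nat.card ↥(autG ⊓ stabilizer (Equiv.Perm (Fin 4060)) (0 : Fin 4060)) := by
      have h := card_mul_stab autG (0 : Fin 4060)
      rw [← h]
      refine Nat.mul_le_mul_right _ ?_
      exact (Set.ncard_le_ncard (Set.subset_univ _)).trans (by rw [Set.ncard_univ, Nat.card_fin])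
    have := card_aut_lt
    rw [Nat.card_prod, hcG, card_RK, ← hcL] at hsum
    nlinarith

open RuModel in
theorem isoRu_RK : Cfsg.Spor.IsoRu RK := by
  have hker : piHom.ker = Subgroup.center Cfsg.Spor.fourRu := by
    refine le_antisymm (fun f hf => ?_) fun f hf => ?_
    · obtain ⟨v, -, rfl⟩ := ker_eq_scalars hf
      refine pow_mem (Subgroup.mem_center_iff.2 fun g => ?_) v
      exact (iS_comm g).symm
    · haveI := range_simple
      have hc : piHom.rangeRestrict f ∈ Subgroup.center piHom.range := by
        refine Subgroup.mem_center_iff.2 fun g => ?_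
        obtain ⟨k, rfl⟩ := piHom.rangeRestrict_surjective g
        rw [← map_mul, ← map_mul, Subgroup.mem_center_iff.1 hf k]
      rcases IsSimpleGroup.eq_bot_or_eq_top_of_normal (Subgroup.center piHom.range) inferInstance with h | h
      · rw [h, Subgroup.mem_bot] at hc
        exact congrArg Subtype.val hc
      · letI : CommGroup piHom.range := Group.commGroupOfCenterEqTop h
        have hp := IsSimpleGroup.prime_card (α := piHom.range)
        rw [card_fourRu.2.2.1] at hp
        exact absurd hp (by norm_num)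
  exact ⟨((MulEquiv.subgroupCongr range_eq_K).symm.trans
    (QuotientGroup.quotientKerEquivRange piHom).symm).trans (QuotientGroup.quotientMulEquivOfEq hker)⟩

end Cfsg.Agent.RuRank
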